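import Cfsg.Agent.Co1Five.Twist

/-!
The centraliser of the layer is the alternating group of degree five.
-/

set_option autoImplicit false

namespace Cfsg.Agent.Co1Five

open Cfsg Cfsg.Agent.ExtraTwo Cfsg.Agent.LargeExtra Cfsg.Agent.TTClass.OrthF2
open Cfsg.Agent.Co1Type

theorem swap_cyc3 : Equiv.swap (0 : Fin 5) 2 * Equiv.swap 0 1 = cyc3 := by decide +kernel

theorem cyc3_four : cyc3 ^ 4 = cyc3 := by decide +kernel

theorem cyc5_three : ∀ j : Fin 5, (cyc5 ^ (j : ℕ)) 3 = 3 + j := by decide +kernel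

theorem comb_zero {V : Type*} [AddCommGroup V] [Module (ZMod 2) V] (p : Fin 5 → V) :
    comb p 0 = 0 := by simp [comb]

theorem relOrd_pos : ∀ j : Fin 5, relOrd j ≠ 0 := by decide

theorem three_pow_ne_zero (k : ℕ) : (3 ^ k) % 5 ≠ 0 := by
  induction k with
  | zero => norm_num
  | succ k ih => rw [pow_succ, Nat.mul_mod]; omega

theorem eq_zero_of_cyc {i : Fin 5} {k : ℕ}
    (h : cyc5 ^ (3 ^ k * (i : ℕ)) * cyc3 * (cyc5 ^ (3 ^ k * (i : ℕ)))⁻¹ = cyc3) : i = 0 := by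
  have hred : cyc5 ^ (3 ^ k * (i : ℕ)) = cyc5 ^ ((3 ^ k * (i : ℕ)) % 5) := pow_eq_pow_mod _ cyc5_pow_five
  rw [hred] at h
  have h0 := shift_fix ⟨_, Nat.mod_lt _ (by norm_num)⟩ h
  have h1 : (3 ^ k * (i : ℕ)) % 5 = 0 := congrArg Fin.val h0
  have h2 : 5 ∣ (i : ℕ) := by
    rcases (Nat.Prime.dvd_mul (by norm_num : Nat.Prime 5)).1 (Nat.dvd_of_mod_eq_zero h1) with e | e
    · exact absurd (Nat.dvd_iff_mod_eq_zero.1 e) (three_pow_ne_zero k)
    · exact e
  exact Fin.ext (Nat.eq_zero_of_dvd_of_lt h2 i.2)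

variable {G : Type*} [Group G] [Finite G]

namespace Conf

variable {z : G} {Q : Subgroup G} {φ : G → V8} {b : G} {p r : Fin 5 → V8} {g s y : G}
  (C : Conf z Q φ b p r g s y)
include C

theorem mov_mem_TT {a : G} (ha : a ∈ Q) (hv : φ a ∈ C.five.ctx.mov) : a ∈ C.TT := by
  have hz := C.fr.ci.comm a ha
  have hQ : ∀ u ∈ Q ⊓ Subgroup.centralizer ({b} : Set G), a * u = u * a := fun u hu =>
    (C.fr.map_comm a ha u hu.1).2 (by
      rw [C.fr.qf.symm]
      exact C.five.ctx.perp ((C.five.ctx.mem_fix_iff hu.1).2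
        (Subgroup.mem_centralizer_singleton_iff.1 hu.2).symm) hv)
  exact C.mem_TT.2 ⟨hz, hQ s C.s_Qb, fun l hl =>
    C.side hz hQ l ⟨(C.mem_L1.1 hl).1, Subgroup.mem_centralizer_singleton_iff.2 (C.mem_L1.1 hl).2.1⟩⟩

theorem s_mem_TT : s ∈ C.TT := C.mem_TT.2 ⟨C.s_comm_z, rfl, fun _ hl => (C.mem_L1.1 hl).2.2⟩

theorem z_mem_TT : z ∈ C.TT :=
  C.mem_TT.2 ⟨rfl, C.s_comm_z.symm, fun _ hl => (C.mem_L1.1 hl).2.1⟩

theorem yinv_X {a : G} (ha : At.IsX z s a) : y⁻¹ * a * y ∈ Q := by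
  rcases ha with rfl | rfl | rfl | rfl
  · rw [mul_one, inv_mul_cancel]; exact one_mem _
  · rw [C.yinv_z]; exact mul_mem C.at_.mem C.fr.ci.mem
  · rw [C.yinv_s]; exact C.fr.ci.mem
  · rw [show y⁻¹ * (s * z) * y = y⁻¹ * s * y * (y⁻¹ * z * y) by group, C.yinv_s, C.yinv_z]
    exact mul_mem C.fr.ci.mem (mul_mem C.at_.mem C.fr.ci.mem)

/-- Transport of the translation part along an element moving `z` inside the four-group. -/
theorem transfer {u s' d : G} (hAu : At z Q q8 b8 φ s8 f8 u s')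
    (hT : ∀ c ∈ C.TT, u * c * u⁻¹ ∈ C.TT)
    (hK : ∀ c ∈ C.TT, C.Has c 1 → C.Has (u * c * u⁻¹) 1) (huz : u * z * u⁻¹ ∈ Q)
    (hus : u * s * u⁻¹ ∈ Q) (huiQ : u⁻¹ * z * u ∈ Q)
    (huiφ : φ (u⁻¹ * z * u) = s8) (hub : u * b = b * u) (hd : d ∈ C.TT) (hdc : C.Has d cyc3)
    (hdu : u * d = d * u) :
    ∀ a ∈ Q, a ∈ C.TT → C.rho (u * a * u⁻¹) = C.pm (φ a) := by
  have hF := C.five.ctx.fr
  let F : G → V8 := fun a => C.rho (u * a * u⁻¹)
  have hFmul : ∀ a ∈ Q, a ∈ C.TT → ∀ a', a' ∈ C.TT → F (a * a') = F a + F a' := fun a ha hat a' hat' => by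
    show C.rho (u * (a * a') * u⁻¹) = _
    rw [show u * (a * a') * u⁻¹ = u * a * u⁻¹ * (u * a' * u⁻¹) by group,
      C.rho_mul (hT a hat) (hT a' hat'), C.th_id (hT a hat) (hK a hat (C.has_Q ha)) (C.rho_mem _)]
  have hFz : F z = 0 := C.rho_Q huz
  have hF0 : ∀ a ∈ Q, a ∈ C.TT → C.pm (φ a) = 0 → F a = 0 := by
    intro a ha hat h0
    have hfix : φ a ∈ C.five.ctx.fix := by
      rw [C.split_pm (φ a), h0, add_zero]; exact C.five.ctx.avg_mem _
    have hperp : ∀ w ∈ C.five.ctx.fix, b8 w (p 0) = 0 → b8 (φ a) w = 0 := by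
      intro w hw hw0
      obtain ⟨v, hv, rfl⟩ := C.lift_fix_mem hw
      have hvs : v * s = s * v := (C.at_.img_comm hv.1).2 (by rw [← C.five.p0]; exact hw0)
      exact (C.fr.map_comm a ha v hv.1).1
        ((C.mem_TT.1 hat).2.2 v (C.mem_L1.2 ⟨(C.Qb_le hv).1, C.fr.ci.comm v hv.1, hvs⟩)).symm
    have e := C.perp_perp hfix hperp
    rcases z2 (b8 (φ a) (p 1)) with k | k <;> rw [k] at e
    · rw [zero_smul] at e
      rcases C.fr.map_ker a ha e with rfl | rfl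
      · show C.rho _ = 0
        rw [mul_one, mul_inv_cancel, C.rho_one]
      · exact hFz
    · rw [one_smul, C.five.p0, ← C.at_.img] at e
      rcases C.fr.eq_or_of_map_eq ha C.at_.mem e with rfl | rfl
      · exact C.rho_Q hus
      · rw [hFmul s C.at_.mem C.s_mem_TT z C.z_mem_TT, hFz, show F s = 0 from C.rho_Q hus, add_zero]
  have hinj : ∀ a ∈ Q, a ∈ C.TT → F a = 0 → C.pm (φ a) = 0 := by
    intro a ha hat h0
    have hx : u * a * u⁻¹ ∈ Q := C.mem_Q_of (hT a hat) (hK a hat (C.has_Q ha)) h0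
    have hx' : u⁻¹ * (u * a * u⁻¹) * u ∈ Q := by rw [conj_conj_inv]; exact ha
    have hp0 : C.pm s8 = 0 := by rw [← C.five.p0]; exact C.pm_fix (C.five.hp.mem 0)
    have ha' : a = 1 ∨ a = u⁻¹ * z * u ∨ a = z ∨ a = z * (u⁻¹ * z * u) := by
      rcases hAu.inter hx hx' with e | e | e | e
      · exact Or.inl (conj_eq_one_iff.1 e)
      · exact Or.inr (Or.inl (by rw [← e]; group))
      · rw [hAu.eq] at e
        exact Or.inr (Or.inr (Or.inl (mul_left_cancel (mul_right_cancel e))))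
      · refine Or.inr (Or.inr (Or.inr ?_))
        rw [hAu.eq] at e
        calc a = u⁻¹ * (u * a * u⁻¹) * u := by group
          _ = z * (u⁻¹ * z * u) := by rw [e]; group
    rcases ha' with rfl | rfl | rfl | rfl
    · rw [C.fr.map_one, map_zero]
    · rw [huiφ, hp0]
    · rw [C.fr.map_z, map_zero]
    · rw [C.fr.map_mul _ C.fr.ci.mem _ huiQ, C.fr.map_z, zero_add, huiφ, hp0]
  choose lift hliftQ hliftφ using fun x => C.fr.map_surj (C.pm x)
  have hliftT : ∀ x, lift x ∈ C.TT := fun x =>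
    C.mov_mem_TT (hliftQ x) (by rw [hliftφ]; exact C.pm_mem x)
  let f : V8 → V8 := fun x => F (lift x)
  have hcongr : ∀ a ∈ Q, a ∈ C.TT → F a = f (φ a) := by
    intro a ha hat
    have hk : F ((lift (φ a))⁻¹ * a) = 0 := by
      refine hF0 _ (mul_mem (inv_mem (hliftQ _)) ha) (mul_mem (inv_mem (hliftT _)) hat) ?_
      rw [C.fr.map_mul _ (inv_mem (hliftQ _)) _ ha, C.fr.map_inv (hliftQ _), hliftφ, map_add,
        C.pm_mov (C.pm_mem _), add_self']
    calc F a = F (lift (φ a) * ((lift (φ a))⁻¹ * a)) := by rw [mul_inv_cancel_left]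
      _ = f (φ a) := by
        rw [hFmul _ (hliftQ _) (hliftT _) _ (mul_mem (inv_mem (hliftT _)) hat), hk, add_zero]
  have hfadd : ∀ x x', f (x + x') = f x + f x' := by
    intro x x'
    show F (lift (x + x')) = F (lift x) + F (lift x')
    rw [← hFmul _ (hliftQ x) (hliftT x) _ (hliftT x'),
      hcongr _ (hliftQ (x + x')) (hliftT _),
      hcongr _ (mul_mem (hliftQ x) (hliftQ x')) (mul_mem (hliftT x) (hliftT x'))]
    congr 1
    rw [C.fr.map_mul _ (hliftQ x) _ (hliftQ x'), hliftφ, hliftφ, hliftφ, map_add]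
  have hfmem : ∀ x, f x ∈ C.five.ctx.mov := fun x => C.rho_mem _
  have heq : ∀ e ∈ C.TT, u * e = e * u → ∀ v ∈ C.five.ctx.mov, f (C.th e v) = C.th e (f v) := by
    intro e he hue v hv
    obtain ⟨a, ha, rfl⟩ := C.fr.map_surj v
    have hat := C.mov_mem_TT ha hv
    have hez := C.tz he
    have hea : e * a * e⁻¹ ∈ Q := hF.conj_memQ hez ha
    have heat : e * a * e⁻¹ ∈ C.TT := mul_mem (mul_mem he hat) (inv_mem he)
    set x := u * a * u⁻¹ with hxdef
    have hxt : x ∈ C.TT := hT a hat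
    have hx1 : C.Has x 1 := hK a hat (C.has_Q ha)
    set x' := e * x * e⁻¹ with hx'def
    have hx't : x' ∈ C.TT := mul_mem (mul_mem he hxt) (inv_mem he)
    obtain ⟨σ, hσ⟩ := C.has_exists he
    have hx'1 : C.Has x' 1 := by simpa using C.has_conj he hxt hσ hx1
    have hρ : C.rho x' = C.th e (C.rho x) := by
      have e1 := C.rho_mul he hxt
      rw [show e * x = x' * e by rw [hx'def, inv_mul_cancel_right], C.rho_mul hx't he,
        C.th_id hx't hx'1 (C.rho_mem e), add_comm] at e1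
      exact add_left_cancel e1
    have hl : F (e * a * e⁻¹) = C.rho x' := by
      show C.rho (u * (e * a * e⁻¹) * u⁻¹) = C.rho x'
      congr 1
      rw [hx'def, hxdef, show u * (e * a * e⁻¹) * u⁻¹ = u * e * a * (u * e)⁻¹ by group, hue]
      group
    rw [← hcongr a ha hat]
    show f (C.th e (φ a)) = C.th e (C.rho x)
    rw [← hρ, ← hl, hcongr _ hea heat]
    show F (lift _) = F (lift _)
    rw [hcongr _ (hliftQ _) (hliftT _), hcongr _ (hliftQ _) (hliftT _), hliftφ, hliftφ]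
    congr 1
    rw [C.pm_mov (C.th_mem e _), ← hF.act_map hez ha]
    rfl
  obtain ⟨c, hc⟩ := C.five.hr.span _ (hfmem (r 3))
  have hne : ¬ CEq c 0 := fun h0 => C.five.hr.ne_zero 3 (by
    have e : F (lift (r 3)) = 0 := hc.trans (C.five.hr.comb_eq_zero.2 h0)
    have e' := hinj _ (hliftQ _) (hliftT _) e
    rwa [hliftφ, C.pm_mov (C.pm_mem _), C.pm_mov (C.five.hr.mem 3)] at e')
  have hbT : ∀ i : ℕ, b ^ i ∈ C.TT := fun i => pow_mem C.b_mem_TT i
  have hub' : ∀ i : ℕ, u * b ^ i = b ^ i * u := fun i => (Commute.pow_right hub i).eq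
  have hstep : ∀ i : Fin 5, f (r (3 + i)) = comb r (pAct (cyc5 ^ (i : ℕ)) c) := by
    intro i
    have hh := C.has_pow C.b_mem_TT C.has_b (i : ℕ)
    rw [← cyc5_three i, ← hh 3, heq _ (hbT _) (hub' _) _ (C.five.hr.mem 3)]
    exact C.th_eq (hbT _) hh (hfmem _) hc
  have hsys : ∀ i : Fin 5, CEq (pAct cyc3 (pAct (cyc5 ^ (i : ℕ)) c))
      (pAct (cyc5 ^ (((cyc3 (i + 3)) - 3 : Fin 5) : ℕ)) c) := by
    intro i
    rw [← C.five.hr.comb_eq, ← C.th_eq hd hdc (C.five.hr.mem_comb _) rfl, ← hstep, ← hstep,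
      add_comm i 3, add_sub_cancel, ← heq d hd hdu _ (C.five.hr.mem _), hdc]
  have hc3 : f (r 3) = r 3 := by
    rw [hc, C.five.hr.comb_eq.2 (equiv_unique c hne hsys), comb_single]
  have hall : ∀ j, f (r j) = r j := by
    intro j
    have hh := C.has_pow C.b_mem_TT C.has_b ((j - 3 : Fin 5) : ℕ)
    have e3 : r j = C.th (b ^ ((j - 3 : Fin 5) : ℕ)) (r 3) := by
      rw [hh 3, cyc5_three, add_sub_cancel]
    rw [e3, heq _ (hbT _) (hub' _) _ (C.five.hr.mem 3), hc3]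
  intro a ha hat
  show F a = C.pm (φ a)
  rw [hcongr a ha hat]
  have hpm : f (φ a) = f (C.pm (φ a)) := by
    show F (lift (φ a)) = F (lift (C.pm (φ a)))
    rw [hcongr _ (hliftQ _) (hliftT _), hcongr _ (hliftQ _) (hliftT _), hliftφ, hliftφ,
      C.pm_mov (C.pm_mem _)]
  rw [hpm]
  exact C.five.hr.eq_of_perm (M' := id) hfadd (fun _ _ => rfl) (π := 1) hall (fun _ => rfl) (C.pm_mem _)

theorem conj_TT_two {c : G} (hc : c ∈ C.TT) : y * y * c * (y * y)⁻¹ ∈ C.TT := by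
  rw [show y * y * c * (y * y)⁻¹ = y * (y * c * y⁻¹) * y⁻¹ by group]
  exact C.conj_TT (C.conj_TT hc)

theorem exists_lift_three :
    ∃ d ∈ C.TT, C.Has d cyc3 := by
  obtain ⟨c0, hc0, hcf, hcr⟩ := C.five.lift_cycle C.five.hr (W' := C.five.ctx.fix)
    (fun x hx w hw => C.five.ctx.perp hx hw) (i := (0 : Fin 5)) (j := 1) (k := 2) (by decide)
    (by decide) (by decide)
  rw [swap_cyc3] at hcr
  set c := c0 * c0 with hc
  have hcz : c * z = z * c := C.fr.mul_comm_z hc0 hc0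
  have hcQ : ∀ a ∈ Q ⊓ Subgroup.centralizer ({b} : Set G), c * a = a * c :=
    fun a ha => C.sq_cent hc0 hcf ha
  have hcT : c ∈ C.TT := C.mem_TT.2 ⟨hcz, hcQ s C.s_Qb, fun l hl =>
    C.side hcz hcQ l ⟨(C.mem_L1.1 hl).1, Subgroup.mem_centralizer_singleton_iff.2 (C.mem_L1.1 hl).2.1⟩⟩
  have h2 : C.Has c (cyc3 * cyc3) := fun i => by
    have h := C.five.ctx.fr
    rw [th, h.act_mul hc0 hc0, hcr, hcr, C.pm_mov (C.five.hr.mem _)]
    rfl
  refine ⟨c * c, mul_mem hcT hcT, ?_⟩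
  have := C.has_mul hcT hcT h2 h2
  rwa [show cyc3 * cyc3 * (cyc3 * cyc3) = cyc3 by decide +kernel] at this

theorem conj_cyc3 {d : G} (hd : d ∈ C.TT) (hdc : C.Has d cyc3) : C.Has (y * d * y⁻¹) cyc3 := by
  obtain ⟨π, hπ⟩ := C.has_exists (C.conj_TT hd)
  have hbj : ∀ j : ℕ, b ^ j ∈ C.TT ∧ C.Has (b ^ j) (cyc5 ^ j) := fun j =>
    ⟨pow_mem C.b_mem_TT j, C.has_pow C.b_mem_TT C.has_b j⟩
  have hyb : ∀ j : ℕ, y * b ^ j * y⁻¹ = b ^ j := fun j =>
    mul_inv_eq_iff_eq_mul.2 (Commute.pow_right C.yb j).eq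
  have himg : ∀ {e : G} {σ : Equiv.Perm (Fin 5)}, e ∈ C.TT → C.Has e σ → σ = 1 →
      ∀ {τ}, C.Has (y * e * y⁻¹) τ → τ = 1 := fun {e σ} he hσ h1 {τ} hτ =>
    C.has_unique hτ (C.conj_has_one he (h1 ▸ hσ))
  have h3 : π ^ 3 = 1 := by
    refine himg (pow_mem hd 3) (C.has_pow hd hdc 3) cyc3_cube ?_
    rw [show y * d ^ 3 * y⁻¹ = (y * d * y⁻¹) ^ 3 from conj_pow.symm]
    exact C.has_pow (C.conj_TT hd) hπ 3
  have hj : ∀ j : Fin 5, (π * cyc5 ^ (j : ℕ)) ^ relOrd j = 1 := by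
    intro j
    have hm := mul_mem hd (hbj j).1
    refine himg (pow_mem hm (relOrd j))
      (C.has_pow hm (C.has_mul hd (hbj j).1 hdc (hbj j).2) (relOrd j)) (relOrd_spec j) ?_
    rw [show y * (d * b ^ (j : ℕ)) ^ relOrd j * y⁻¹ =
      (y * d * y⁻¹ * (y * b ^ (j : ℕ) * y⁻¹)) ^ relOrd j by
        rw [show y * d * y⁻¹ * (y * b ^ (j : ℕ) * y⁻¹) = y * (d * b ^ (j : ℕ)) * y⁻¹ by group,
          conj_pow], hyb]
    exact C.has_pow (mul_mem (C.conj_TT hd) (hbj j).1)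
      (C.has_mul (C.conj_TT hd) (hbj j).1 hπ (hbj j).2) (relOrd j)
  have hne : π ≠ 1 := by
    intro e
    obtain ⟨k, hk⟩ := C.ypow
    have hall : ∀ n : ℕ, C.Has (y ^ (n + 1) * d * (y ^ (n + 1))⁻¹) 1 ∧
        y ^ (n + 1) * d * (y ^ (n + 1))⁻¹ ∈ C.TT := by
      intro n
      induction n with
      | zero => rw [zero_add, pow_one]; exact ⟨e ▸ hπ, C.conj_TT hd⟩
      | succ n ih =>
        rw [show y ^ (n + 1 + 1) * d * (y ^ (n + 1 + 1))⁻¹ =
          y * (y ^ (n + 1) * d * (y ^ (n + 1))⁻¹) * y⁻¹ by rw [pow_succ' y (n + 1)]; group]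
        exact ⟨C.conj_has_one ih.2 ih.1, C.conj_TT ih.2⟩
    have hone := (hall (3 ^ k - 1)).1
    rw [Nat.sub_add_cancel (Nat.one_le_pow k 3 (by norm_num)), hk] at hone
    simp only [one_mul, inv_one, mul_one] at hone
    exact cyc3_ne (C.has_unique hdc hone)
  obtain ⟨i, hi⟩ := relations_orbit π h3 hne hj
  suffices i = 0 by
    rw [hi, this] at hπ
    simpa using hπ
  obtain ⟨k, hk⟩ := C.ypow
  have hall : ∀ n : ℕ, y ^ n * d * (y ^ n)⁻¹ ∈ C.TT ∧ C.Has (y ^ n * d * (y ^ n)⁻¹)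
      (cyc5 ^ (n * (i : ℕ)) * cyc3 * (cyc5 ^ (n * (i : ℕ)))⁻¹) := by
    intro n
    induction n with
    | zero => simpa using ⟨hd, hdc⟩
    | succ n ih =>
      rw [show y ^ (n + 1) * d * (y ^ (n + 1))⁻¹ = y * (y ^ n * d * (y ^ n)⁻¹) * y⁻¹ by
        rw [pow_succ']; group]
      refine ⟨C.conj_TT ih.1, ?_⟩
      set m := b ^ (n * (i : ℕ)) with hm
      obtain ⟨hmT, hmH⟩ := hbj (n * (i : ℕ))
      have hσ : C.Has (y * (m * d * m⁻¹) * y⁻¹)
          (cyc5 ^ ((n + 1) * (i : ℕ)) * cyc3 * (cyc5 ^ ((n + 1) * (i : ℕ)))⁻¹) := by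
        rw [show y * (m * d * m⁻¹) * y⁻¹ = y * m * y⁻¹ * (y * d * y⁻¹) * (y * m * y⁻¹)⁻¹ by group,
          hm, hyb]
        have := C.has_conj hmT (C.conj_TT hd) hmH hπ
        rw [hi] at this
        rwa [show cyc5 ^ ((n + 1) * (i : ℕ)) = cyc5 ^ (n * (i : ℕ)) * cyc5 ^ (i : ℕ) by
          rw [← pow_add, Nat.succ_mul], show ∀ A B : Equiv.Perm (Fin 5),
            A * B * cyc3 * (A * B)⁻¹ = A * (B * cyc3 * B⁻¹) * A⁻¹ from fun A B => by group]
      exact C.conj_has (mul_mem (mul_mem hmT hd) (inv_mem hmT)) ih.1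
        (C.has_conj hmT hd hmH hdc) ih.2 hσ
  have hone := (hall (3 ^ k)).2
  rw [hk, one_mul, inv_one, mul_one] at hone
  exact eq_zero_of_cyc (C.has_unique hone hdc)

theorem exists_fixed_three : ∃ d ∈ C.TT, C.Has d cyc3 ∧ y * d = d * y := by
  classical
  obtain ⟨d0, hd0, hd0c⟩ := C.exists_lift_three
  have hconj : ∀ x, x ∈ C.TT ∧ C.Has x cyc3 → y * x * y⁻¹ ∈ C.TT ∧ C.Has (y * x * y⁻¹) cyc3 :=
    fun x hx => ⟨C.conj_TT hx.1, C.conj_cyc3 hx.1 hx.2⟩
  let K : Subgroup G :=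
    { carrier := {x | x ∈ C.TT ∧ C.Has x 1}
      one_mem' := ⟨one_mem _, C.has_one⟩
      mul_mem' := fun {u v} hu hv => ⟨mul_mem hu.1 hv.1, by
        simpa using C.has_mul hu.1 hv.1 hu.2 hv.2⟩
      inv_mem' := fun {u} hu => ⟨inv_mem hu.1, by simpa using C.has_inv hu.1 hu.2⟩ }
  have hK2 : IsPGroup 2 K := fun x => ⟨3, Subtype.ext (C.pow_eight x.2.1 x.2.2)⟩
  haveI : Fact (Nat.Prime 2) := ⟨Nat.prime_two⟩
  haveI : Fact (Nat.Prime 3) := ⟨Nat.prime_three⟩
  obtain ⟨n, hn⟩ := hK2.exists_card_eq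
  let S := {x : G // x ∈ C.TT ∧ C.Has x cyc3}
  let eS : S ≃ K :=
    { toFun := fun x => ⟨d0⁻¹ * x.1, mul_mem (inv_mem hd0) x.2.1, by
        simpa using C.has_mul (inv_mem hd0) x.2.1 (C.has_inv hd0 hd0c) x.2.2⟩
      invFun := fun u => ⟨d0 * u.1, mul_mem hd0 u.2.1, by
        simpa using C.has_mul hd0 u.2.1 hd0c u.2.2⟩
      left_inv := fun x => Subtype.ext (mul_inv_cancel_left _ _)
      right_inv := fun u => Subtype.ext (inv_mul_cancel_left _ _) }
  let σ : Equiv.Perm S := Equiv.ofBijective (fun x => ⟨y * x.1 * y⁻¹, hconj _ x.2⟩)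
    (Finite.injective_iff_bijective.1 fun u v e => Subtype.ext (by
      simpa using congrArg Subtype.val e))
  have hσn : ∀ (m : ℕ) x, ((σ ^ m) x).1 = y ^ m * x.1 * (y ^ m)⁻¹ := by
    intro m
    induction m with
    | zero => intro x; simp
    | succ m ih =>
      intro x
      rw [pow_succ', Equiv.Perm.mul_apply]
      show y * ((σ ^ m) x).1 * y⁻¹ = _
      rw [ih, pow_succ']
      group
  obtain ⟨k, hk⟩ := C.ypow
  have hσk : σ ^ (3 ^ k) = 1 := Equiv.ext fun x => Subtype.ext (by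
    rw [hσn, hk]; simp)
  haveI : Fintype S := Fintype.ofFinite _
  obtain ⟨⟨d, hdT, hdc⟩, hfix⟩ := Equiv.Perm.exists_fixed_point_of_prime (p := 3) (n := k)
    (fun hdvd => by
      rw [← Nat.card_eq_fintype_card, Nat.card_congr eS, hn] at hdvd
      exact absurd (Nat.prime_three.dvd_of_dvd_pow hdvd) (by norm_num)) hσk
  exact ⟨d, hdT, hdc, mul_inv_eq_iff_eq_mul.1 (congrArg Subtype.val hfix)⟩

/-- An element of the kernel fixed by `y` has no translation part. -/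
theorem rho_eq_zero {d k : G} (hd : d ∈ C.TT) (hdc : C.Has d cyc3) (hyd : y * d = d * y)
    (hk : k ∈ C.TT) (hk1 : C.Has k 1) (hyk : y * k = k * y) : C.rho k = 0 := by
  have hF := C.five.ctx.fr
  have hA1 : At z Q q8 b8 φ s8 f8 y s :=
    { fr := C.at_.fr, md := C.at_.md, eq := C.yz.symm, mem := C.at_.mem, img := C.at_.img }
  have hszQ : s * z ∈ Q := mul_mem C.at_.mem C.fr.ci.mem
  have hy2z : y * y * z * (y * y)⁻¹ = s * z := by
    rw [show y * y * z * (y * y)⁻¹ = y * (y * z * y⁻¹) * y⁻¹ by group, C.yz, C.ys]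
  have hy2s : y * y * s * (y * y)⁻¹ = z := by
    rw [show y * y * s * (y * y)⁻¹ = y * (y * s * y⁻¹) * y⁻¹ by group, C.ys, C.y_sz]
  have hy2i : (y * y)⁻¹ * z * (y * y) = s := by
    rw [← hy2s]
    group
  have hA2 : At z Q q8 b8 φ s8 f8 (y * y) (s * z) :=
    { fr := C.at_.fr, md := C.at_.md, eq := hy2z.symm, mem := hszQ,
      img := by rw [C.fr.map_mul _ C.at_.mem _ C.fr.ci.mem, C.at_.img, C.fr.map_z, add_zero] }
  have t1 := C.transfer hA1 (fun c hc => C.conj_TT hc) (fun c hc h => C.conj_has_one hc h)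
    (by rw [C.yz]; exact C.at_.mem) (by rw [C.ys]; exact hszQ) (by rw [C.yinv_z]; exact hszQ)
    (by rw [C.yinv_z, C.fr.map_mul _ C.at_.mem _ C.fr.ci.mem, C.at_.img, C.fr.map_z, add_zero])
    C.yb hd hdc hyd
  have t2 := C.transfer hA2 (fun c hc => C.conj_TT_two hc)
    (fun c hc h => by
      rw [show y * y * c * (y * y)⁻¹ = y * (y * c * y⁻¹) * y⁻¹ by group]
      exact C.conj_has_one (C.conj_TT hc) (C.conj_has_one hc h))
    (by rw [hy2z]; exact hszQ) (by rw [hy2s]; exact C.fr.ci.mem) (by rw [hy2i]; exact C.at_.mem)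
    (by rw [hy2i, C.at_.img])
    (by rw [mul_assoc, C.yb, ← mul_assoc, C.yb, mul_assoc])
    hd hdc (by rw [mul_assoc, hyd, ← mul_assoc, hyd, mul_assoc])
  obtain ⟨a, ha, haφ⟩ := C.fr.map_surj (C.rho k)
  have hat := C.mov_mem_TT ha (by rw [haφ]; exact C.rho_mem k)
  have hx : C.rho (y * a * y⁻¹) = C.rho k := by
    rw [t1 a ha hat, haφ, C.pm_mov (C.rho_mem k)]
  set q0 := k * (y * a * y⁻¹) with hq0
  have hxT := C.conj_TT hat
  have hx1 := C.conj_has_one hat (C.has_Q ha)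
  have hq0T : q0 ∈ C.TT := mul_mem hk hxT
  have hq0Q : q0 ∈ Q := C.mem_Q_of hq0T (by simpa using C.has_mul hk hxT hk1 hx1) (by
    rw [hq0, C.rho_mul hk hxT, C.th_id hk hk1 (C.rho_mem _), hx, add_self'])
  -- the image of `q0` in the moved space vanishes
  have h1 : C.pm (φ q0) = 0 := by
    have e1 : y * q0 * y⁻¹ = k * (y * y * a * (y * y)⁻¹) := by
      rw [hq0, show y * (k * (y * a * y⁻¹)) * y⁻¹ = y * k * y⁻¹ * (y * y * a * (y * y)⁻¹) by group,
        mul_inv_eq_iff_eq_mul.2 hyk]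
    rw [← t1 q0 hq0Q hq0T, e1, C.rho_mul hk (C.conj_TT_two hat), C.th_id hk hk1 (C.rho_mem _),
      t2 a ha hat, haφ, C.pm_mov (C.rho_mem k), add_self']
  have hX : At.IsX z s q0 := by
    have hfix : φ q0 ∈ C.five.ctx.fix := by
      rw [C.split_pm (φ q0), h1, add_zero]; exact C.five.ctx.avg_mem _
    have e := C.perp_perp hfix fun w hw hw0 => by
      obtain ⟨v, hv, rfl⟩ := C.lift_fix_mem hw
      have hvs : v * s = s * v := (C.at_.img_comm hv.1).2 (by rw [← C.five.p0]; exact hw0)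
      exact (C.fr.map_comm q0 hq0Q v hv.1).1
        ((C.mem_TT.1 hq0T).2.2 v (C.mem_L1.2 ⟨(C.Qb_le hv).1, C.fr.ci.comm v hv.1, hvs⟩)).symm
    rcases z2 (b8 (φ q0) (p 1)) with e' | e' <;> rw [e'] at e
    · rw [zero_smul] at e
      rcases C.fr.map_ker q0 hq0Q e with h | h
      · exact Or.inl h
      · exact Or.inr (Or.inl h)
    · rw [one_smul, C.five.p0, ← C.at_.img] at e
      rcases C.fr.eq_or_of_map_eq hq0Q C.at_.mem e with h | h
      · exact Or.inr (Or.inr (Or.inl h))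
      · exact Or.inr (Or.inr (Or.inr h))
  have hkQ : k ∈ Q := by
    have e : y⁻¹ * q0 * y = k * a := by
      rw [hq0, show y⁻¹ * (k * (y * a * y⁻¹)) * y = y⁻¹ * (k * y) * a by group, ← hyk,
        inv_mul_cancel_left]
    rw [show k = y⁻¹ * q0 * y * a⁻¹ by rw [e, mul_inv_cancel_right]]
    exact mul_mem (C.yinv_X hX) (inv_mem ha)
  exact C.rho_Q hkQ

theorem rho_pow {c : G} (hc : c ∈ C.TT) {π : Equiv.Perm (Fin 5)} (h : C.Has c π)
    {e : Fin 5 → ZMod 2} (he : C.rho c = comb r e) :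
    ∀ n : ℕ, C.rho (c ^ n) = comb r (pSum π e n)
  | 0 => by rw [pow_zero, C.rho_one]; exact (comb_zero r).symm
  | n + 1 => by
    rw [pow_succ', C.rho_mul hc (pow_mem hc n), rho_pow hc h he n,
      C.th_eq hc h (C.five.hr.mem_comb _) rfl, he, ← comb_add]
    rfl

theorem cent_mem_TT {m : G} (hm : m ∈ Subgroup.centralizer (LL b : Set G)) : m ∈ C.TT := by
  have h := fun l (hl : l ∈ LL b) => Subgroup.mem_centralizer_iff.1 hm l hl
  exact C.mem_TT.2 ⟨(h z (C.Qb_le ⟨C.fr.ci.mem, C.z_mem_K⟩).1).symm, (h s (C.Qb_le C.s_Qb).1).symm,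
    fun l hl => h l (C.mem_L1.1 hl).1⟩

theorem exists_three_cent :
    ∃ c ∈ Subgroup.centralizer (LL b : Set G), C.Has c cyc3 := by
  obtain ⟨d, hd, hdc, hyd⟩ := C.exists_fixed_three
  have hF := C.five.ctx.fr
  obtain ⟨e, he⟩ := C.five.hr.span _ (C.rho_mem d)
  have hrels : ∀ j : Fin 5, CEq (pSum (cyc3 * cyc5 ^ (j : ℕ)) e (relOrd j)) 0 := by
    intro j
    have hbT := pow_mem C.b_mem_TT (j : ℕ)
    have hbH := C.has_pow C.b_mem_TT C.has_b (j : ℕ)
    have hcT := mul_mem hd hbT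
    have hH := C.has_mul hd hbT hdc hbH
    have hρb : C.rho (b ^ (j : ℕ)) = 0 := by
      rw [rho, th, ← C.five.ctx.lin_pow, C.five.ctx.pow_fix (C.five.hp.mem 1),
        C.pm_fix (C.five.hp.mem 1)]
    have hρ : C.rho (d * b ^ (j : ℕ)) = comb r e := by
      rw [C.rho_mul hd hbT, hρb, ← comb_zero r, C.th_eq hd hdc (C.five.hr.mem_comb 0) rfl,
        ← he, show pAct cyc3 (0 : Fin 5 → ZMod 2) = 0 from rfl, comb_zero, add_zero]
    have hk := C.has_pow hcT hH (relOrd j)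
    rw [relOrd_spec j] at hk
    have hcy : Commute y (d * b ^ (j : ℕ)) :=
      (show Commute y d from hyd).mul_right (Commute.pow_right C.yb _)
    have h0 := C.rho_eq_zero hd hdc hyd (pow_mem hcT _) hk (hcy.pow_right _).eq
    rw [C.rho_pow hcT hH hρ (relOrd j)] at h0
    exact C.five.hr.comb_eq_zero.1 h0
  have hr0 : C.rho d = 0 := by
    rw [he]
    exact C.five.hr.comb_eq_zero.2 (cocycle_zero e hrels)
  -- trivial action on the fixed space
  have hfix : ∀ x ∈ C.five.ctx.fix, hF.act d x = x := by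
    obtain ⟨ε, hε⟩ := C.act_split_t hd
    rw [hr0, add_zero] at hε
    have hε0 : ε = 0 := by
      have e' := congrArg q8 hε
      rw [hF.act_q (C.tz hd)] at e'
      rcases z2 ε with rfl | rfl
      · rfl
      · rw [one_smul, C.five.hp.q_add (by decide), C.five.hp.sing] at e'
        exact e'.symm
    rw [hε0, zero_smul, add_zero] at hε
    intro v hv
    rcases z2 (b8 v (p 0)) with e' | e'
    · exact C.act_perp hd hv e'
    · have e3 := C.act_perp hd (add_mem hv (C.five.hp.mem 1)) (by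
        rw [LinearMap.map_add₂, e', C.pair_t]; rfl)
      rw [hF.act_add (C.tz hd), hε] at e3
      exact add_right_cancel e3
  set c := d * d with hc
  have hcz : c * z = z * c := C.fr.mul_comm_z (C.tz hd) (C.tz hd)
  have hcQ : ∀ a ∈ Q ⊓ Subgroup.centralizer ({b} : Set G), c * a = a * c :=
    fun a ha => C.sq_cent (C.tz hd) hfix ha
  have hcy : y * c = c * y := by rw [hc, ← mul_assoc, hyd, mul_assoc, hyd, ← mul_assoc]
  have hcL : c ∈ Subgroup.centralizer (LL b : Set G) := by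
    refine Subgroup.mem_centralizer_iff.2 fun l hl => ?_
    set H := Subgroup.centralizer ({c} : Set G) ⊓ LL b
    have hcov := C.covers (H := H) ⟨Subgroup.mem_centralizer_singleton_iff.2 hcy, C.y_mem_LL⟩
      fun u hub huz => by
        obtain ⟨l, hl, n, e⟩ := C.exists_mem_L0 hub huz
        exact ⟨l, ⟨Subgroup.mem_centralizer_singleton_iff.2 (C.side hcz hcQ l hl), hl.1⟩, n, e⟩
    obtain ⟨a, ⟨hac, haL⟩, n, e⟩ :=
      hcov l (Subgroup.mem_centralizer_singleton_iff.1 (LL_le b hl))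
    have h1 : b ^ n = 1 := C.pow_eq_one_of_mem (by
      rw [show b ^ n = a⁻¹ * l by rw [e, inv_mul_cancel_left]]
      exact mul_mem (inv_mem haL) hl)
    rw [h1, mul_one] at e
    rw [e]
    exact Subgroup.mem_centralizer_singleton_iff.1 hac
  refine ⟨c * c, mul_mem hcL hcL, ?_⟩
  have hcT := mul_mem hd hd
  have := C.has_mul hcT hcT (C.has_mul hd hd hdc hdc) (C.has_mul hd hd hdc hdc)
  rwa [show cyc3 * cyc3 * (cyc3 * cyc3) = cyc3 by decide +kernel] at this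

theorem cent_act_fix {m : G} (hm : m ∈ Subgroup.centralizer (LL b : Set G)) {x : V8}
    (hx : x ∈ C.five.ctx.fix) : C.five.ctx.fr.act m x = x :=
  C.act_eq_of_cent (C.tz (C.cent_mem_TT hm))
    (fun a ha => (Subgroup.mem_centralizer_iff.1 hm a (C.Qb_le ha).1).symm) hx

theorem cent_eq_one {m : G} (hm : m ∈ Subgroup.centralizer (LL b : Set G)) (h1 : C.Has m 1) :
    m = 1 := by
  obtain ⟨d, hd, hdc, hyd⟩ := C.exists_fixed_three
  have hT := C.cent_mem_TT hm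
  have hmy : y * m = m * y := Subgroup.mem_centralizer_iff.1 hm y C.y_mem_LL
  have hQm : m ∈ Q := C.mem_Q_of hT h1 (C.rho_eq_zero hd hdc hyd hT h1 hmy)
  have hmov : φ m ∈ C.five.ctx.mov := C.five.ctx.mem_mov_of_perp fun u hu => by
    obtain ⟨a, ha, rfl⟩ := C.lift_fix_mem hu
    exact (C.fr.map_comm m hQm a ha.1).1 (Subgroup.mem_centralizer_iff.1 hm a (C.Qb_le ha).1).symm
  have hA1 : At z Q q8 b8 φ s8 f8 y s :=
    { fr := C.at_.fr, md := C.at_.md, eq := C.yz.symm, mem := C.at_.mem, img := C.at_.img }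
  have hszQ : s * z ∈ Q := mul_mem C.at_.mem C.fr.ci.mem
  have e := C.transfer hA1 (fun c hc => C.conj_TT hc) (fun c hc h => C.conj_has_one hc h)
    (by rw [C.yz]; exact C.at_.mem) (by rw [C.ys]; exact hszQ) (by rw [C.yinv_z]; exact hszQ)
    (by rw [C.yinv_z, C.fr.map_mul _ C.at_.mem _ C.fr.ci.mem, C.at_.img, C.fr.map_z, add_zero])
    C.yb hd hdc hyd m hQm hT
  rw [mul_inv_eq_iff_eq_mul.2 hmy, C.rho_Q hQm, C.pm_mov hmov] at e
  refine (C.fr.map_ker m hQm e.symm).resolve_right fun hz => C.at_.ne_z ?_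
  rw [hz] at hmy
  rw [← C.yz, hmy, mul_inv_cancel_right]

theorem nonempty_cent_equiv :
    Nonempty (↥(Subgroup.centralizer (LL b : Set G)) ≃* alternatingGroup (Fin 5)) := by
  set M := Subgroup.centralizer (LL b : Set G) with hM
  choose π hπ using fun m : M => C.has_exists (C.cent_mem_TT m.2)
  let f : M →* Equiv.Perm (Fin 5) := MonoidHom.mk' π fun m n =>
    C.has_unique (hπ (m * n)) (C.has_mul (C.cent_mem_TT m.2) (C.cent_mem_TT n.2) (hπ m) (hπ n))
  have hf : Function.Injective f := (injective_iff_map_eq_one f).2 fun m hm =>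
    Subtype.ext (C.cent_eq_one m.2 (show C.Has m 1 by rw [← show π m = 1 from hm]; exact hπ m))
  have hrange : f.range = alternatingGroup (Fin 5) := by
    refine eq_alt_of_no_swap (alt_le_of_cyc ?_ ?_) fun i j hij h => ?_
    · have hb : b ∈ M := Subgroup.mem_centralizer_iff.2 fun l hl =>
        Subgroup.mem_centralizer_singleton_iff.1 (LL_le b hl)
      exact ⟨⟨b, hb⟩, C.has_unique (hπ ⟨b, hb⟩) C.has_b⟩
    · obtain ⟨c, hc, hc3⟩ := C.exists_three_cent
      exact ⟨⟨c, hc⟩, C.has_unique (hπ ⟨c, hc⟩) hc3⟩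
    · obtain ⟨m, hm⟩ := h
      refine C.five.no_swap1 (C.tz (C.cent_mem_TT m.2)) (fun x hx => C.cent_act_fix m.2 hx) hij
        fun k => ?_
      have e := hπ m k
      rw [th, C.pm_mov (C.act_mov_of_fix (C.tz (C.cent_mem_TT m.2))
        (fun x hx => C.cent_act_fix m.2 hx) (C.five.hr.mem k))] at e
      rw [e, show π m = Equiv.swap i j from hm]
  exact ⟨(MonoidHom.ofInjective hf).trans (MulEquiv.subgroupCongr hrange)⟩

end Conf

end Cfsg.Agent.Co1Five
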