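import Mathlib.GroupTheory.Perm.Sign
import Mathlib.Data.ZMod.Basic
import Mathlib.GroupTheory.SpecificGroups.Alternating

/-!
Facts about the alternating group of degree five acting on the vectors of length five over the
field with two elements modulo the constants.
-/

set_option autoImplicit false
set_option maxRecDepth 100000

namespace Cfsg.Agent.Co1Five

/-- The five cycle. -/
def cyc5 : Equiv.Perm (Fin 5) where
  toFun := ![1, 2, 3, 4, 0]
  invFun := ![4, 0, 1, 2, 3]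
  left_inv := by decide
  right_inv := by decide

/-- The three cycle. -/
def cyc3 : Equiv.Perm (Fin 5) where
  toFun := ![1, 2, 0, 3, 4]
  invFun := ![2, 0, 1, 3, 4]
  left_inv := by decide
  right_inv := by decide

/-- Equality modulo the constants. -/
def CEq (c c' : Fin 5 → ZMod 2) : Prop := ∀ i, c i + c' i = c 0 + c' 0

instance (c c' : Fin 5 → ZMod 2) : Decidable (CEq c c') := by unfold CEq; infer_instance

/-- The action on vectors. -/
def pAct (π : Equiv.Perm (Fin 5)) (c : Fin 5 → ZMod 2) : Fin 5 → ZMod 2 := fun i => c (π.symm i)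

/-- The value of a cocycle on the power of an element. -/
def pSum (π : Equiv.Perm (Fin 5)) (c : Fin 5 → ZMod 2) : ℕ → (Fin 5 → ZMod 2)
  | 0 => 0
  | n + 1 => c + pAct π (pSum π c n)

/-- The orders of `cyc3 * cyc5 ^ j`. -/
def relOrd : Fin 5 → ℕ := ![3, 5, 2, 5, 3]

theorem relOrd_spec : ∀ j : Fin 5, (cyc3 * cyc5 ^ (j : ℕ)) ^ relOrd j = 1 := by decide +kernel

theorem cocycle_zero : ∀ r : Fin 5 → ZMod 2,
    (∀ j : Fin 5, CEq (pSum (cyc3 * cyc5 ^ (j : ℕ)) r (relOrd j)) 0) → CEq r 0 := by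
  decide +kernel

theorem equiv_unique : ∀ v : Fin 5 → ZMod 2, ¬ CEq v 0 →
    (∀ i : Fin 5, CEq (pAct cyc3 (pAct (cyc5 ^ (i : ℕ)) v))
      (pAct (cyc5 ^ (((cyc3 (i + 3)) - 3 : Fin 5) : ℕ)) v)) →
    CEq v (fun k => if k = 3 then 1 else 0) := by
  decide +kernel

/-- Permutations with the relations of `cyc3` with respect to `cyc5`. -/
theorem relations_orbit : ∀ π : Equiv.Perm (Fin 5), π ^ 3 = 1 → π ≠ 1 →
    (∀ j : Fin 5, (π * cyc5 ^ (j : ℕ)) ^ relOrd j = 1) →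
    ∃ i : Fin 5, π = cyc5 ^ (i : ℕ) * cyc3 * (cyc5 ^ (i : ℕ))⁻¹ := by
  decide +kernel

theorem shift_fix : ∀ i : Fin 5, cyc5 ^ (i : ℕ) * cyc3 * (cyc5 ^ (i : ℕ))⁻¹ = cyc3 → i = 0 := by
  decide +kernel

theorem cyc5_pow_five : cyc5 ^ 5 = 1 := by decide +kernel

theorem cyc3_ne : cyc3 ≠ 1 := by decide +kernel

theorem cyc3_cube : cyc3 ^ 3 = 1 := by decide +kernel

theorem three_cycle_words : ∀ a b c : Fin 5, a ≠ b → a ≠ c → b ≠ c →
    ∃ i j k : Fin 5, ∃ l m : Fin 3,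
      Equiv.swap a b * Equiv.swap a c =
        cyc5 ^ (i : ℕ) * cyc3 ^ (l : ℕ) * cyc5 ^ (j : ℕ) * cyc3 ^ (m : ℕ) * cyc5 ^ (k : ℕ) := by
  decide +kernel

end Cfsg.Agent.Co1Five
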