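import Cfsg.Agent.ExtraTwo.Space
import Cfsg.Agent.Co1Five.Model

/-!
Quadratic spaces of minus type of dimension four over the field with two elements through their
five singular points.
-/

set_option autoImplicit false

namespace Cfsg.Agent.Co1Five

open Cfsg.Agent.ExtraTwo Cfsg.Agent.TTClass.OrthF2

variable {V : Type*} [AddCommGroup V] [Module (ZMod 2) V] {q : V → ZMod 2}
  {B : V →ₗ[ZMod 2] V →ₗ[ZMod 2] ZMod 2}

/-- The combination of five vectors. -/
def comb (p : Fin 5 → V) (c : Fin 5 → ZMod 2) : V := ∑ i, c i • p i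

theorem comb_add (p : Fin 5 → V) (c c' : Fin 5 → ZMod 2) :
    comb p (c + c') = comb p c + comb p c' := by
  simp [comb, add_smul, Finset.sum_add_distrib]

theorem comb_single (p : Fin 5 → V) (k : Fin 5) :
    comb p (fun i => if i = k then 1 else 0) = p k := by
  simp [comb, ite_smul]

/-- An additive map preserving the form and a subspace. -/
structure Pres (q : V → ZMod 2) (W : Submodule (ZMod 2) V) (M : V → V) : Prop where
  add : ∀ x y, M (x + y) = M x + M y
  qeq : ∀ x, q (M x) = q x
  mem : ∀ x ∈ W, M x ∈ W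

/-- Five singular points of a minus type space of dimension four. -/
structure Pent (q : V → ZMod 2) (B : V →ₗ[ZMod 2] V →ₗ[ZMod 2] ZMod 2) (W : Submodule (ZMod 2) V)
    (p : Fin 5 → V) : Prop where
  qf : IsQF q B
  mem : ∀ i, p i ∈ W
  sing : ∀ i, q (p i) = 0
  pair : ∀ i j, i ≠ j → B (p i) (p j) = 1
  only : ∀ x ∈ W, q x = 0 → x ≠ 0 → ∃ i, x = p i
  span : ∀ x ∈ W, ∃ c, x = comb p c
  sum : comb p (fun _ => 1) = 0

theorem pair_comb (qf : IsQF q B) {p : Fin 5 → V} (pair : ∀ i j, i ≠ j → B (p i) (p j) = 1)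
    (c : Fin 5 → ZMod 2) (j : Fin 5) : B (comb p c) (p j) = (∑ i, c i) + c j := by
  have h1 : ∀ i, B (p i) (p j) = 1 + if i = j then 1 else 0 := by
    intro i
    by_cases h : i = j
    · subst h; rw [qf.self, if_pos rfl]; rfl
    · rw [pair i j h, if_neg h, add_zero]
  simp [comb, map_sum, h1, mul_add, Finset.sum_add_distrib]

/-- A construction from the five points. -/
theorem Pent.of_points [Finite V] (qf : IsQF q B) {W : Submodule (ZMod 2) V} {p : Fin 5 → V}
    (hcard : Nat.card W = 16) (hnd : ∀ x ∈ W, (∀ y ∈ W, B x y = 0) → x = 0)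
    (mem : ∀ i, p i ∈ W) (sing : ∀ i, q (p i) = 0)
    (pair : ∀ i j, i ≠ j → B (p i) (p j) = 1)
    (only : ∀ x ∈ W, q x = 0 → x ≠ 0 → ∃ i, x = p i) : Pent q B W p := by
  have hmem : ∀ c, comb p c ∈ W := fun c => sum_mem fun i _ => W.smul_mem _ (mem i)
  let F : (Fin 4 → ZMod 2) → W := fun c => ⟨comb p (Fin.snoc c 0), hmem _⟩
  have hinj : Function.Injective F := by
    intro c c' e
    have e' : comb p (Fin.snoc c 0) = comb p (Fin.snoc c' 0) := congrArg Subtype.val e
    have hk : ∀ j, (∑ i, (Fin.snoc c 0 : Fin 5 → ZMod 2) i) + (Fin.snoc c 0 : Fin 5 → ZMod 2) j =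
        (∑ i, (Fin.snoc c' 0 : Fin 5 → ZMod 2) i) + (Fin.snoc c' 0 : Fin 5 → ZMod 2) j := fun j => by
      rw [← pair_comb qf pair, e', pair_comb qf pair]
    have h4 := hk (Fin.last 4)
    simp only [Fin.snoc_last, add_zero] at h4
    funext i
    have h := hk i.castSucc
    rw [h4] at h
    simpa using h
  have hsurj : Function.Surjective F :=
    ((Nat.bijective_iff_injective_and_card F).2 ⟨hinj, by rw [hcard]; simp [Nat.card_eq_fintype_card]⟩).2
  have span : ∀ x ∈ W, ∃ c, x = comb p c := fun x hx => by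
    obtain ⟨c, hc⟩ := hsurj ⟨x, hx⟩
    exact ⟨_, (congrArg Subtype.val hc).symm⟩
  refine ⟨qf, mem, sing, pair, only, span, hnd _ (hmem _) fun y hy => ?_⟩
  obtain ⟨c, rfl⟩ := span y hy
  have h0 : ∀ j, B (comb p fun _ => 1) (p j) = 0 := fun j => by
    rw [pair_comb qf pair]
    simp only [Finset.sum_const, Finset.card_univ, Fintype.card_fin]
    decide
  simp [comb, map_sum] at h0 ⊢
  simp [h0]

namespace Pent

variable {W : Submodule (ZMod 2) V} {p : Fin 5 → V} (hp : Pent q B W p)
include hp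

theorem inj : Function.Injective p := fun i j e => by
  by_contra hne
  have := hp.pair i j hne
  rw [e, hp.qf.self] at this
  exact zero_ne_one this

theorem ne_zero (i : Fin 5) : p i ≠ 0 := fun e => by
  have := hp.pair i (i + 1) (by fin_cases i <;> decide)
  rw [e, map_zero, LinearMap.zero_apply] at this
  exact zero_ne_one this

theorem comb_eq {c c' : Fin 5 → ZMod 2} : comb p c = comb p c' ↔ CEq c c' := by
  constructor
  · intro e i
    have hi := congrArg (fun x => B x (p i)) e
    have h0 := congrArg (fun x => B x (p 0)) e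
    simp only [pair_comb hp.qf hp.pair] at hi h0
    generalize (∑ j, c j) = a at *
    generalize (∑ j, c' j) = a' at *
    generalize c i = x, c' i = x', c 0 = y, c' 0 = y' at *
    revert x x' y y' a a'
    decide
  · intro e
    refine eq_of_add_eq_zero' ?_
    rw [← comb_add]
    rcases z2 (c 0 + c' 0) with h | h
    · rw [show c + c' = 0 from funext fun i => (e i).trans h]
      simp [comb]
    · rw [show c + c' = (fun _ => 1) from funext fun i => (e i).trans h, hp.sum]

theorem mem_comb (c : Fin 5 → ZMod 2) : comb p c ∈ W :=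
  sum_mem fun i _ => W.smul_mem _ (hp.mem i)

theorem comb_eq_zero {c : Fin 5 → ZMod 2} : comb p c = 0 ↔ CEq c 0 := by
  rw [← hp.comb_eq]
  simp [comb]

theorem eq_zero_of_perp {x : V} (hx : x ∈ W) (h : ∀ i, B x (p i) = 0) : x = 0 := by
  obtain ⟨c, rfl⟩ := hp.span x hx
  rw [hp.comb_eq_zero]
  intro i
  have hi := h i
  have h0 := h 0
  rw [pair_comb hp.qf hp.pair] at hi h0
  simp only [Pi.zero_apply, add_zero]
  exact add_left_cancel (hi.trans h0.symm)

/-- A sum of two points is not singular. -/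
theorem q_add {i j : Fin 5} (h : i ≠ j) : q (p i + p j) = 1 := by
  rw [hp.qf.add, hp.sing, hp.sing, hp.pair i j h]
  rfl

theorem exists_perm [Finite V] {M : V → V} (hM : Pres q W M) :
    ∃ π : Equiv.Perm (Fin 5), ∀ i, M (p i) = p (π i) := by
  have h0 : M 0 = 0 := by
    have := hM.add 0 0
    rw [add_zero] at this
    exact left_eq_add.mp this
  have hB : ∀ x y, B (M x) (M y) = B x y := fun x y => by
    have e := hp.qf.add x y
    rw [← hM.qeq (x + y), hM.add, hp.qf.add, hM.qeq, hM.qeq] at e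
    exact add_left_cancel e
  have hne : ∀ i, M (p i) ≠ 0 := fun i e => by
    have := hB (p i) (p (i + 1))
    rw [e, hp.pair i (i + 1) (by fin_cases i <;> decide), map_zero, LinearMap.zero_apply] at this
    exact zero_ne_one this
  choose f hf using fun i =>
    hp.only (M (p i)) (hM.mem _ (hp.mem i)) ((hM.qeq _).trans (hp.sing i)) (hne i)
  have hfi : Function.Injective f := fun i j e => by
    by_contra hij
    have := hB (p i) (p j)
    rw [hf i, hf j, e, hp.qf.self, hp.pair i j hij] at this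
    exact zero_ne_one this
  exact ⟨Equiv.ofBijective f ⟨hfi, Finite.surjective_of_injective hfi⟩, hf⟩

theorem map_comb {M : V → V} (hadd : ∀ x y, M (x + y) = M x + M y) {π : Equiv.Perm (Fin 5)}
    (hπ : ∀ i, M (p i) = p (π i)) (c : Fin 5 → ZMod 2) :
    M (comb p c) = comb p (pAct π c) := by
  let F : V →+ V := AddMonoidHom.mk' M hadd
  show F (comb p c) = _
  unfold comb
  rw [map_sum, ← Equiv.sum_comp π fun i => pAct π c i • p i]
  refine Finset.sum_congr rfl fun i _ => ?_
  simp only [pAct, Equiv.symm_apply_apply]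
  rcases z2 (c i) with h | h <;> rw [h]
  · simp
  · rw [one_smul, one_smul]
    exact hπ i

theorem eq_of_perm {M M' : V → V} (hadd : ∀ x y, M (x + y) = M x + M y)
    (hadd' : ∀ x y, M' (x + y) = M' x + M' y) {π : Equiv.Perm (Fin 5)}
    (hπ : ∀ i, M (p i) = p (π i)) (hπ' : ∀ i, M' (p i) = p (π i)) {x : V} (hx : x ∈ W) :
    M x = M' x := by
  obtain ⟨c, rfl⟩ := hp.span x hx
  rw [hp.map_comb hadd hπ, hp.map_comb hadd' hπ']

/-- A pair gives a three cycle. -/
theorem pairMap_cycle {i j k : Fin 5} (hij : i ≠ j) (hik : i ≠ k) (hjk : j ≠ k) :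
    q (p i + p j) = 1 ∧ q (p j + p k) = 1 ∧ B (p i + p j) (p j + p k) = 1 ∧
    ∀ l, pairMap B (p i + p j) (p j + p k) (p l) = p ((Equiv.swap i k * Equiv.swap i j) l) := by
  have b1 := hp.pair i j hij
  have b2 := hp.pair i k hik
  have b3 := hp.pair j k hjk
  refine ⟨hp.q_add hij, hp.q_add hjk, ?_, fun l => ?_⟩
  · simp [b1, b2, b3, hp.qf.self]; decide
  · have b1' := (hp.qf.symm _ _).trans b1
    have b2' := (hp.qf.symm _ _).trans b2
    have b3' := (hp.qf.symm _ _).trans b3
    have two : (1 : ZMod 2) + 1 = 0 := rfl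
    rcases eq_or_ne l i with rfl | hli
    · simp [pairMap, hp.qf.self, b1, b2, two, Equiv.swap_apply_of_ne_of_ne hij.symm hjk,
        add_left_self]
    rcases eq_or_ne l j with rfl | hlj
    · simp [pairMap, hp.qf.self, b1', b3, two, add_left_self]
    rcases eq_or_ne l k with rfl | hlk
    · simp [pairMap, hp.qf.self, b2', b3', two, Equiv.swap_apply_of_ne_of_ne hli hlj]
      calc p l + (p j + p l) + (p i + p j) = p i + (p l + p l) + (p j + p j) := by abel
        _ = p i := by rw [add_self', add_self', add_zero, add_zero]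
    · simp [pairMap, hp.pair l i hli, hp.pair l j hlj, hp.pair l k hlk, two,
        Equiv.swap_apply_of_ne_of_ne hli hlj, Equiv.swap_apply_of_ne_of_ne hli hlk]

end Pent

theorem diff_cover : ∀ k j : Fin 5, k ≠ 0 → j ≠ 0 → j ≠ k → ∀ d : Fin 5, d ≠ 0 →
    d = k ∨ d = -k ∨ d = j ∨ d = -j ∨ d = j - k ∨ d = k - j := by decide

/-- Five singular points permuted cyclically are pairwise non-orthogonal. -/
theorem pair_of_cyclic [Finite V] (qf : IsQF q B) {W : Submodule (ZMod 2) V} {p : Fin 5 → V}
    (hcard : Nat.card W = 16) (mem : ∀ i, p i ∈ W) (hne : ∀ i, p i ≠ 0)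
    (hinj : Function.Injective p) (sing : ∀ i, q (p i) = 0)
    (only : ∀ x ∈ W, q x = 0 → x ≠ 0 → ∃ i, x = p i) {M : V → V}
    (hB : ∀ x y, B (M x) (M y) = B x y) (hM : ∀ i, M (p i) = p (i + 1)) :
    ∀ i j, i ≠ j → B (p i) (p j) = 1 := by
  by_contra hcon
  push Not at hcon
  have hone : ∀ i j, B (p (i + 1)) (p (j + 1)) = B (p i) (p j) := fun i j => by
    rw [← hM, ← hM, hB]
  have hshift : ∀ k i j : Fin 5, B (p (i + k)) (p (j + k)) = B (p i) (p j) := by
    intro k
    induction k using Fin.induction with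
    | zero => simp
    | succ k ih =>
      intro i j
      rw [← Fin.coeSucc_eq_succ, ← add_assoc, ← add_assoc, hone, ih]
  have hZ : ∀ i j, B (p i) (p j) = B (p 0) (p (j - i)) := fun i j => by
    have := hshift i 0 (j - i)
    simpa using this
  have hsum : ∀ i j, i ≠ j → B (p i) (p j) = 0 → ∃ k, k ≠ i ∧ k ≠ j ∧ p i + p j = p k ∧
      B (p i) (p k) = 0 ∧ B (p j) (p k) = 0 := by
    intro i j hij h0
    obtain ⟨k, hk⟩ := only (p i + p j) (W.add_mem (mem i) (mem j))
      (by rw [qf.add, sing, sing, h0]; rfl) (fun e => hij (hinj (eq_of_add_eq_zero' e)))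
    refine ⟨k, fun e => hne j ?_, fun e => hne i ?_, hk, ?_, ?_⟩
    · rw [e, add_eq_left] at hk; exact hk
    · rw [e, add_eq_right] at hk; exact hk
    · rw [← hk, map_add, qf.self, h0, add_zero]
    · rw [← hk, map_add, qf.self, qf.symm, h0, add_zero]
  obtain ⟨i, j, hij, h0⟩ := hcon
  have h0' := (z2 _).resolve_right h0
  rw [hZ] at h0'
  set k := j - i
  have hk : k ≠ 0 := fun e => hij (sub_eq_zero.1 e).symm
  obtain ⟨l, hl0, hlk, -, hb1, hb2⟩ := hsum 0 k hk.symm h0'
  rw [hZ] at hb2
  have hneg : ∀ d, B (p 0) (p (-d)) = B (p 0) (p d) := fun d => by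
    rw [qf.symm (p 0) (p d), hZ d 0, zero_sub]
  have hall : ∀ d, B (p 0) (p d) = 0 := by
    intro d
    rcases eq_or_ne d 0 with rfl | hd
    · exact qf.self _
    rcases diff_cover k l hk hl0 hlk d hd with rfl | rfl | rfl | rfl | rfl | rfl
    · exact h0'
    · rw [hneg, h0']
    · exact hb1
    · rw [hneg, hb1]
    · exact hb2
    · rw [← neg_sub, hneg, hb2]
  let S : AddSubgroup W :=
    { carrier := {x | (x : V) = 0 ∨ ∃ i, (x : V) = p i}
      zero_mem' := Or.inl rfl
      add_mem' := by
        rintro ⟨x, hx⟩ ⟨y, hy⟩ (ex | ⟨a, ex⟩) (ey | ⟨b, ey⟩) <;> simp only at ex ey <;> subst ex ey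
        · exact Or.inl (add_zero 0)
        · exact Or.inr ⟨b, zero_add _⟩
        · exact Or.inr ⟨a, add_zero _⟩
        · rcases eq_or_ne a b with rfl | hab
          · exact Or.inl (add_self' _)
          · obtain ⟨c, -, -, hc, -⟩ := hsum a b hab (by rw [hZ]; exact hall _)
            exact Or.inr ⟨c, hc⟩
      neg_mem' := by
        rintro ⟨x, hx⟩ h
        simpa [ZModModule.neg_eq_self] using h }
  have hS : Nat.card S = 6 := by
    let F : Option (Fin 5) → S := fun o => o.elim 0 fun i => ⟨⟨p i, mem i⟩, Or.inr ⟨i, rfl⟩⟩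
    have hF : Function.Bijective F := by
      constructor
      · rintro (_ | a) (_ | b) e
        · rfl
        · exact absurd (congrArg (fun x : S => ((x : W) : V)) e).symm (hne b)
        · exact absurd (congrArg (fun x : S => ((x : W) : V)) e) (hne a)
        · exact congrArg _ (hinj (congrArg (fun x : S => ((x : W) : V)) e))
      · rintro ⟨x, hx | ⟨a, ha⟩⟩
        · exact ⟨none, Subtype.ext (Subtype.ext hx.symm)⟩
        · exact ⟨some a, Subtype.ext (Subtype.ext ha.symm)⟩
    rw [← Nat.card_congr (Equiv.ofBijective F hF)]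
    simp [Nat.card_eq_fintype_card]
  have := S.card_addSubgroup_dvd_card
  rw [hS, hcard] at this
  norm_num at this

end Cfsg.Agent.Co1Five
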