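import Mathlib.GroupTheory.Perm.Cycle.Type
import Cfsg.Agent.Co1Type.Four
import Cfsg.Agent.Co1Five.Pent

/-!
Lifts of subspaces, changes of coordinates and the absence of transvections for a group of Conway
type.
-/

set_option autoImplicit false

namespace Cfsg.Agent.Co1Five

open Cfsg.Agent.ExtraTwo Cfsg.Agent.LargeExtra Cfsg.Agent.TTClass.OrthF2
open Cfsg.Agent.Co1Type

variable {G : Type*} [Group G] {ι : Type} [Fintype ι] {z : G} {Q : Subgroup G}
  {q : (ι → ZMod 2) → ZMod 2} {B : (ι → ZMod 2) →ₗ[ZMod 2] (ι → ZMod 2) →ₗ[ZMod 2] ZMod 2}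
  {φ : G → ι → ZMod 2}

/-- No element of the centraliser induces a transvection. -/
def NoTrans (h : Frame z Q q B φ) : Prop :=
  ∀ c, c * z = z * c → ∀ u, q u = 1 → (∀ x, h.act c x = x + B x u • u) → False

/-- The elements of `Q` with image in a subspace. -/
def preSub (h : Frame z Q q B φ) (W : Submodule (ZMod 2) (ι → ZMod 2)) : Subgroup G where
  carrier := {a | a ∈ Q ∧ φ a ∈ W}
  one_mem' := ⟨one_mem _, by rw [h.map_one]; exact zero_mem _⟩
  mul_mem' := fun {a b} ha hb => ⟨mul_mem ha.1 hb.1, by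
    rw [h.map_mul a ha.1 b hb.1]; exact add_mem ha.2 hb.2⟩
  inv_mem' := fun {a} ha => ⟨inv_mem ha.1, by rw [h.map_inv ha.1]; exact ha.2⟩

theorem mem_preSub {h : Frame z Q q B φ} {W : Submodule (ZMod 2) (ι → ZMod 2)} {a : G} :
    a ∈ preSub h W ↔ a ∈ Q ∧ φ a ∈ W := Iff.rfl

theorem card_preSub (h : Frame z Q q B φ) (W : Submodule (ZMod 2) (ι → ZMod 2)) :
    Nat.card (preSub h W) = 2 * Nat.card W := by
  classical
  choose r hr hrφ using h.map_surj
  let F : Bool × W → preSub h W := fun x => ⟨r x.2 * if x.1 then z else 1,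
    mul_mem (hr _) (by split <;> simp [h.ci.mem]), by
      rw [h.map_mul _ (hr _) _ (by split <;> simp [h.ci.mem]), hrφ]
      split <;> simp [h.map_z, h.map_one]⟩
  have hbij : Function.Bijective F := by
    constructor
    · rintro ⟨i, v⟩ ⟨j, w⟩ e
      have e' : r v * (if i then z else 1) = r w * (if j then z else 1) := congrArg Subtype.val e
      have hvw : (v : ι → ZMod 2) = w := by
        have := congrArg φ e'
        rw [h.map_mul _ (hr _) _ (by split <;> simp [h.ci.mem]),
          h.map_mul _ (hr _) _ (by split <;> simp [h.ci.mem]), hrφ, hrφ] at this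
        cases i <;> cases j <;> simpa [h.map_z, h.map_one] using this
      obtain rfl : v = w := Subtype.ext hvw
      have := mul_left_cancel e'
      cases i <;> cases j <;> simp [h.ci.ne_one, h.ci.ne_one.symm] at this ⊢
    · rintro ⟨a, ha, haW⟩
      rcases h.eq_or_of_map_eq ha (hr (φ a)) (hrφ _).symm with e | e
      · exact ⟨(false, ⟨φ a, haW⟩), Subtype.ext (by simp [F, ← e])⟩
      · exact ⟨(true, ⟨φ a, haW⟩), Subtype.ext (by simp [F, ← e])⟩
  rw [← Nat.card_congr (Equiv.ofBijective F hbij), Nat.card_prod]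
  simp [Nat.card_eq_fintype_card]

variable [Finite G]

theorem act_inv_cancel (h : Frame z Q q B φ) {c : G} (hc : c * z = z * c) (x : ι → ZMod 2) :
    h.act c (h.act c⁻¹ x) = x ∧ h.act c⁻¹ (h.act c x) = x :=
  ⟨h.act_act_inv hc x, h.act_inv_act hc x⟩

theorem frame_comp (h : Frame z Q q B φ) {c : G} (hc : c * z = z * c) :
    Frame z Q q B (fun a => h.act c (φ a)) where
  ci := h.ci
  cent := h.cent
  norm := h.norm
  two_le := h.two_le
  even_card := h.even_card
  cardQ := h.cardQ
  qf := h.qf
  map_mul := fun a ha b hb => by rw [h.map_mul a ha b hb, h.act_add hc]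
  map_ker := fun a ha e => h.map_ker a ha (by
    have e' := congrArg (h.act c⁻¹) e
    have h0 := h.act_smul (Commute.inv_left hc).eq 0 0
    simp only [zero_smul] at h0
    rwa [h.act_inv_act hc, h0] at e')
  map_surj := fun v => by
    obtain ⟨a, ha, e⟩ := h.map_surj (h.act c⁻¹ v)
    exact ⟨a, ha, by rw [e, h.act_act_inv hc]⟩
  map_sq := fun a ha => by rw [h.act_q hc]; exact h.map_sq a ha
  map_comm := fun a ha b hb => by rw [h.act_B hc]; exact h.map_comm a ha b hb
  lift := fun u v hu hv huv => by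
    have hci : c⁻¹ * z = z * c⁻¹ := (Commute.inv_left hc).eq
    obtain ⟨d, hd, hda⟩ := h.lift (h.act c⁻¹ u) (h.act c⁻¹ v) (by rw [h.act_q hci, hu])
      (by rw [h.act_q hci, hv]) (by rw [h.act_B hci, huv])
    refine ⟨d, hd, fun a ha => ?_⟩
    rw [hda a ha, pairMap, pairMap, h.act_add hc, h.act_add hc, h.act_smul hc, h.act_smul hc,
      h.act_act_inv hc, h.act_act_inv hc]
    have e : ∀ w, B (φ a) (h.act c⁻¹ w) = B (h.act c (φ a)) w := fun w => by
      conv_rhs => rw [← h.act_act_inv hc w, h.act_B hc]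
    rw [e, e]

theorem frame_comp_act (h : Frame z Q q B φ) {c : G} (hc : c * z = z * c) {d : G}
    (hd : d * z = z * d) (x : ι → ZMod 2) :
    (frame_comp h hc).act d x = h.act c (h.act d (h.act c⁻¹ x)) := by
  obtain ⟨a, ha, rfl⟩ := (frame_comp h hc).map_surj x
  rw [(frame_comp h hc).act_map hd ha]
  show h.act c (φ (d * a * d⁻¹)) = h.act c (h.act d (h.act c⁻¹ (h.act c (φ a))))
  rw [h.act_inv_act hc, h.act_map hd ha]

theorem noTrans_comp (h : Frame z Q q B φ) {c : G} (hc : c * z = z * c) (hn : NoTrans h) :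
    NoTrans (frame_comp h hc) := by
  have hci : c⁻¹ * z = z * c⁻¹ := (Commute.inv_left hc).eq
  intro d hd u hu he
  refine hn d hd (h.act c⁻¹ u) (by rw [h.act_q hci, hu]) fun x => ?_
  have e := congrArg (h.act c⁻¹) (he (h.act c x))
  rw [frame_comp_act h hc hd, h.act_inv_act hc, h.act_inv_act hc, h.act_add hci,
    h.act_smul hci, h.act_inv_act hc] at e
  rw [e]
  conv_rhs => rw [← h.act_B hc, h.act_act_inv hc]

/-- The dichotomy forbids transvections. -/
theorem noTrans_of_dich {φ : G → V8} (h : Frame z Q q8 b8 φ) (hd : Dich h) : NoTrans h := by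
  intro c hc u hu he
  have hu0 : u ≠ 0 := h.qf.ne_zero hu
  obtain ⟨y, hy⟩ : ∃ y, b8 y u = 1 := by
    by_contra hcon
    push Not at hcon
    exact hu0 (h.qf.nd u fun w => by rw [h.qf.symm]; exact (z2 _).resolve_right (hcon w))
  have hcQ : c ∉ Q := fun e => hu0 (by
    have := h.act_of_mem e y
    rwa [he, hy, one_smul, add_eq_left] at this)
  have hcc : c * c ∈ Q := h.mem_of_act (by rw [mul_assoc, hc, ← mul_assoc, hc, mul_assoc])
    fun x => by
      rw [h.act_mul hc hc, he x, h.act_add hc, h.act_smul hc, he u, he x, h.qf.self, zero_smul,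
        add_zero, add_assoc, add_self', add_zero]
  rcases hd c hc hcQ hcc with ⟨s, hqs, hs0, -, ⟨y', hy'⟩, -⟩ | ⟨hcard, hall⟩
  · rw [he, add_comm y', add_assoc, add_comm, add_self', zero_add] at hy' <;>
    · rcases z2 (b8 y' u) with e | e <;> rw [e] at hy'
      · simp at hy'; exact hs0 hy'.symm
      · rw [one_smul] at hy'; rw [← hy', hu] at hqs; exact one_ne_zero hqs
  · have : Nat.card {v // h.act c v = v} ≤ 2 := by
      classical
      let F : {v // h.act c v = v} → Bool := fun v => decide ((v : V8) = 0)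
      refine le_trans (Nat.card_le_card_of_injective F fun a b e => ?_) (by simp)
      have key : ∀ v : {v // h.act c v = v}, (v : V8) = 0 ∨ (v : V8) = u := fun v => by
        obtain ⟨y', hy'⟩ := hall v v.2
        rw [he, add_comm y', add_assoc, add_self', add_zero] at hy'
        rcases z2 (b8 y' u) with r | r <;> rw [r] at hy'
        · exact Or.inl (by rw [← hy', zero_smul])
        · exact Or.inr (by rw [← hy', one_smul])
      rcases key a with ha | ha <;> rcases key b with hb | hb <;>
        first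
          | exact Subtype.ext (ha.trans hb.symm)
          | simp [F, ha, hb, hu0] at e
    omega

end Cfsg.Agent.Co1Five
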