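import Cfsg.Agent.Co1Five.Frame

/-!
The decomposition of the space by an element of order five with a fixed space of order sixteen.
-/

set_option autoImplicit false

namespace Cfsg.Agent.Co1Five

open Cfsg.Agent.ExtraTwo Cfsg.Agent.LargeExtra Cfsg.Agent.TTClass.OrthF2
open Cfsg.Agent.Co1Type

variable {G : Type*} [Group G] [Finite G] {z : G} {Q : Subgroup G} {φ : G → V8} {b : G}

/-- An element of order five of the centraliser with fixed group of order `32` in `Q`. -/
structure Ctx (z : G) (Q : Subgroup G) (φ : G → V8) (b : G) : Prop where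
  fr : Frame z Q q8 b8 φ
  noTrans : NoTrans fr
  bz : b * z = z * b
  border : orderOf b = 5
  cardQb : Nat.card ↥(Q ⊓ Subgroup.centralizer ({b} : Set G)) = 32

theorem card_sing8 : (Finset.univ.filter fun v : V8 => q8 v = 0).card = 136 := by
  decide +kernel

theorem solve_count : ∀ a A : Fin 17, (a : ℕ) * A + (16 - a) * (16 - A) = 136 →
    (a : ℕ) % 5 = 1 → (A : ℕ) % 5 = 1 → (a : ℕ) = 6 ∧ (A : ℕ) = 6 := by decide +kernel

theorem solve_count' : ∀ a A : Fin 17, (a : ℕ) * A + (16 - a) * (16 - A) = 136 →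
    (A : ℕ) % 5 = 1 → (a : ℕ) = 6 ∧ (A : ℕ) = 6 := by decide +kernel

namespace Ctx

variable (C : Ctx z Q φ b)
include C

theorem powz (n : ℕ) : b ^ n * z = z * b ^ n := (Commute.pow_left C.bz n).eq

theorem act_pow_succ (n : ℕ) (x : V8) : C.fr.act (b ^ (n + 1)) x = C.fr.act b (C.fr.act (b ^ n) x) := by
  rw [pow_succ', C.fr.act_mul C.bz (C.powz n)]

theorem pow_five : b ^ 5 = 1 := by rw [← C.border]; exact pow_orderOf_eq_one b

/-- The action of `b` as a linear map. -/
noncomputable def lin : V8 →ₗ[ZMod 2] V8 where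
  toFun := C.fr.act b
  map_add' := C.fr.act_add C.bz
  map_smul' := C.fr.act_smul C.bz

theorem lin_apply (x : V8) : C.lin x = C.fr.act b x := rfl

theorem lin_pow (n : ℕ) (x : V8) : (C.lin ^ n) x = C.fr.act (b ^ n) x := by
  induction n generalizing x with
  | zero => rw [pow_zero, pow_zero, C.fr.act_one]; rfl
  | succ n ih => rw [pow_succ' C.lin, Module.End.mul_apply, ih, lin_apply, ← C.act_pow_succ]

theorem lin_five (x : V8) : (C.lin ^ 5) x = x := by rw [C.lin_pow, C.pow_five, C.fr.act_one]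

/-- The averaging map. -/
noncomputable def avg : V8 →ₗ[ZMod 2] V8 := ∑ n ∈ Finset.range 5, C.lin ^ n

theorem avg_apply (x : V8) : C.avg x =
    x + C.lin x + (C.lin ^ 2) x + (C.lin ^ 3) x + (C.lin ^ 4) x := by
  simp [avg, Finset.sum_range_succ]

theorem lin_avg (x : V8) : C.lin (C.avg x) = C.avg x := by
  have e : ∀ n, C.lin ((C.lin ^ n) x) = (C.lin ^ (n + 1)) x := fun n => by
    rw [pow_succ', Module.End.mul_apply]
  rw [avg_apply, map_add, map_add, map_add, map_add, e 2, e 3, e 4, C.lin_five,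
    show C.lin (C.lin x) = (C.lin ^ 2) x by rw [pow_two, Module.End.mul_apply]]
  abel

/-- The fixed space. -/
noncomputable def fix : Submodule (ZMod 2) V8 := LinearMap.eqLocus C.lin LinearMap.id

/-- The moved space. -/
noncomputable def mov : Submodule (ZMod 2) V8 := LinearMap.ker C.avg

theorem mem_fix {x : V8} : x ∈ C.fix ↔ C.fr.act b x = x := by
  rw [fix, LinearMap.mem_eqLocus]
  rfl

theorem mem_mov {x : V8} : x ∈ C.mov ↔ C.avg x = 0 := LinearMap.mem_ker

theorem pow_fix {x : V8} (hx : x ∈ C.fix) (n : ℕ) : (C.lin ^ n) x = x := by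
  induction n with
  | zero => rfl
  | succ n ih => rw [pow_succ', Module.End.mul_apply, ih]; exact C.mem_fix.1 hx

theorem avg_fix {x : V8} (hx : x ∈ C.fix) : C.avg x = x := by
  have e := C.pow_fix hx 1
  rw [pow_one] at e
  rw [avg_apply, e, C.pow_fix hx 2, C.pow_fix hx 3, C.pow_fix hx 4, add_self', zero_add, add_self',
    zero_add]

theorem avg_mem (x : V8) : C.avg x ∈ C.fix := C.mem_fix.2 (C.lin_avg x)

theorem split (x : V8) : C.avg x ∈ C.fix ∧ x + C.avg x ∈ C.mov := by
  refine ⟨C.avg_mem x, C.mem_mov.2 ?_⟩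
  rw [map_add, C.avg_fix (C.avg_mem x), add_self']

theorem eq_zero_of_both {x : V8} (hf : x ∈ C.fix) (hm : x ∈ C.mov) : x = 0 :=
  (C.avg_fix hf).symm.trans (C.mem_mov.1 hm)

theorem act_mov {x : V8} (hx : x ∈ C.mov) : C.fr.act b x ∈ C.mov := by
  refine C.mem_mov.2 ?_
  show C.avg (C.lin x) = 0
  have e : C.avg (C.lin x) = C.lin (C.avg x) := by
    have hc : ∀ n, (C.lin ^ n) (C.lin x) = C.lin ((C.lin ^ n) x) := fun n => by
      rw [← Module.End.mul_apply, ← Module.End.mul_apply, ← pow_succ, ← pow_succ']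
    simp only [avg_apply, map_add, hc]
  rw [e, C.mem_mov.1 hx, map_zero]

theorem B_lin_fix {x y : V8} (hy : y ∈ C.fix) (n : ℕ) : b8 ((C.lin ^ n) x) y = b8 x y := by
  conv_lhs => rw [← C.pow_fix hy n]
  rw [C.lin_pow, C.lin_pow, C.fr.act_B (C.powz n)]

theorem perp {x y : V8} (hx : x ∈ C.fix) (hy : y ∈ C.mov) : b8 x y = 0 := by
  have e0 : b8 (C.avg y) x = 0 := by rw [C.mem_mov.1 hy, map_zero, LinearMap.zero_apply]
  have e1 := C.B_lin_fix (x := y) hx 1
  rw [pow_one] at e1
  rw [avg_apply] at e0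
  simp only [map_add, LinearMap.add_apply, e1, C.B_lin_fix hx 2, C.B_lin_fix hx 3,
    C.B_lin_fix hx 4] at e0
  rw [C.fr.qf.symm]
  revert e0
  generalize b8 y x = k
  revert k
  decide

theorem q_split {x y : V8} (hx : x ∈ C.fix) (hy : y ∈ C.mov) : q8 (x + y) = q8 x + q8 y := by
  rw [C.fr.qf.add, C.perp hx hy, add_zero]

theorem mem_fix_iff {a : G} (ha : a ∈ Q) : φ a ∈ C.fix ↔ b * a = a * b := by
  rw [C.mem_fix, C.fr.act_map C.bz ha]
  constructor
  · intro e
    rcases C.fr.eq_or_of_map_eq (C.fr.conj_memQ C.bz ha) ha e with e' | e'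
    · exact mul_inv_eq_iff_eq_mul.1 e'
    · exfalso
      have hn : ∀ n : ℕ, b ^ n * a * (b ^ n)⁻¹ = a * z ^ n := by
        intro n
        induction n with
        | zero => simp
        | succ n ih =>
          calc b ^ (n + 1) * a * (b ^ (n + 1))⁻¹ = b * (b ^ n * a * (b ^ n)⁻¹) * b⁻¹ := by
                rw [pow_succ']; group
            _ = (b * a * b⁻¹) * (b * z ^ n * b⁻¹) := by rw [ih]; group
            _ = a * z * z ^ n := by
                rw [e', (Commute.pow_right C.bz n).eq, mul_inv_cancel_right]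
            _ = a * z ^ (n + 1) := by rw [mul_assoc, ← pow_succ']
      have h5 := hn 5
      rw [C.pow_five, inv_one, one_mul, mul_one, show (5 : ℕ) = 2 + 2 + 1 from rfl, pow_add,
        pow_add, pow_two, C.fr.ci.sq, one_mul, one_mul, pow_one] at h5
      exact C.fr.ci.ne_one (mul_eq_left.1 h5.symm)
  · intro e
    rw [e, mul_inv_cancel_right]

theorem preSub_fix : preSub C.fr C.fix = Q ⊓ Subgroup.centralizer ({b} : Set G) := by
  ext a
  rw [mem_preSub, Subgroup.mem_inf, Subgroup.mem_centralizer_singleton_iff]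
  exact and_congr_right fun ha => (C.mem_fix_iff ha).trans eq_comm

theorem card_fix : Nat.card C.fix = 16 := by
  have := card_preSub C.fr C.fix
  rw [C.preSub_fix, C.cardQb] at this
  exact Nat.eq_of_mul_eq_mul_left two_pos this.symm

/-- The splitting of the space. -/
noncomputable def splitEquiv : V8 ≃ C.fix × C.mov where
  toFun x := (⟨C.avg x, (C.split x).1⟩, ⟨x + C.avg x, (C.split x).2⟩)
  invFun p := p.1 + p.2
  left_inv x := by
    show C.avg x + (x + C.avg x) = x
    rw [add_comm x, add_left_self]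
  right_inv := by
    rintro ⟨⟨x, hx⟩, ⟨y, hy⟩⟩
    have e : C.avg (x + y) = x := by rw [map_add, C.avg_fix hx, C.mem_mov.1 hy, add_zero]
    refine Prod.ext (Subtype.ext e) (Subtype.ext ?_)
    show x + y + C.avg (x + y) = y
    rw [e, add_comm x y, add_assoc, add_self', add_zero]

theorem card_mov : Nat.card C.mov = 16 := by
  have := Nat.card_congr C.splitEquiv
  rw [Nat.card_prod, C.card_fix] at this
  simp [Nat.card_eq_fintype_card (α := V8)] at this
  omega

theorem nd_fix : ∀ x ∈ C.fix, (∀ y ∈ C.fix, b8 x y = 0) → x = 0 := fun x hx h =>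
  C.fr.qf.nd x fun w => by
    rw [show w = C.avg w + (w + C.avg w) from (C.splitEquiv.symm_apply_apply w).symm, map_add,
      h _ (C.split w).1, C.perp hx (C.split w).2, add_zero]

theorem nd_mov : ∀ x ∈ C.mov, (∀ y ∈ C.mov, b8 x y = 0) → x = 0 := fun x hx h =>
  C.fr.qf.nd x fun w => by
    rw [show w = C.avg w + (w + C.avg w) from (C.splitEquiv.symm_apply_apply w).symm, map_add,
      h _ (C.split w).2, C.fr.qf.symm, C.perp (C.split w).1 hx, add_zero]

theorem counts : Nat.card {x : C.fix // q8 x = 0} = 6 ∧ Nat.card {y : C.mov // q8 y = 0} = 6 := by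
  classical
  haveI : Fintype C.fix := Fintype.ofFinite _
  haveI : Fintype C.mov := Fintype.ofFinite _
  set F₀ := (Finset.univ : Finset C.fix).filter fun x : C.fix => q8 x = 0 with hF₀
  set M₀ := (Finset.univ : Finset C.mov).filter fun y : C.mov => q8 y = 0 with hM₀
  have hFc : Nat.card {x : C.fix // q8 x = 0} = F₀.card := by
    rw [Nat.card_eq_fintype_card, Fintype.card_subtype]
  have hMc : Nat.card {y : C.mov // q8 y = 0} = M₀.card := by
    rw [Nat.card_eq_fintype_card, Fintype.card_subtype]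
  have hF : Fintype.card C.fix = 16 := by rw [← Nat.card_eq_fintype_card, C.card_fix]
  have hM : Fintype.card C.mov = 16 := by rw [← Nat.card_eq_fintype_card, C.card_mov]
  have heq : F₀.card * M₀.card + F₀ᶜ.card * M₀ᶜ.card = 136 := by
    rw [← card_sing8, ← Finset.card_product, ← Finset.card_product,
      ← Finset.card_union_of_disjoint (Finset.disjoint_left.2 fun p hp hp' => by
        simp only [Finset.mem_product, Finset.mem_compl] at hp hp'
        exact hp'.1 hp.1)]
    refine Finset.card_equiv C.splitEquiv.symm fun p => ?_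
    simp only [Finset.mem_union, Finset.mem_product, Finset.mem_compl, Finset.mem_filter,
      Finset.mem_univ, true_and, F₀, M₀]
    rw [show C.splitEquiv.symm p = (p.1 : V8) + p.2 from rfl, C.q_split p.1.2 p.2.2]
    rcases z2 (q8 (p.1 : V8)) with e | e <;> rcases z2 (q8 (p.2 : V8)) with e' | e' <;>
      simp [e, e'] <;> decide
  rw [Finset.card_compl, Finset.card_compl, hF, hM] at heq
  -- the moved singular vectors fall into orbits of length five
  let σ : Equiv.Perm {y : C.mov // q8 y = 0} :=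
    Equiv.ofBijective (fun y => ⟨⟨C.fr.act b y.1, C.act_mov y.1.2⟩,
        (C.fr.act_q C.bz _).trans y.2⟩)
      (Finite.injective_iff_bijective.1 fun y y' e => by
        have e' := congrArg (fun w : {y : C.mov // q8 y = 0} => C.fr.act b⁻¹ (w.1 : V8)) e
        simp only [C.fr.act_inv_act C.bz] at e'
        exact Subtype.ext (Subtype.ext e'))
  have hσn : ∀ (n : ℕ) y, ((σ ^ n) y).1.1 = C.fr.act (b ^ n) y.1 := by
    intro n
    induction n with
    | zero => intro y; rw [pow_zero, pow_zero, C.fr.act_one]; rfl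
    | succ n ih => intro y; rw [pow_succ', Equiv.Perm.mul_apply, C.act_pow_succ, ← ih]; rfl
  have hσ5 : σ ^ (5 ^ 1) = 1 := Equiv.ext fun y => Subtype.ext (Subtype.ext (by
    rw [pow_one, hσn, C.pow_five, C.fr.act_one]; rfl))
  haveI : Fintype {y : C.mov // q8 y = 0} := Fintype.ofFinite _
  haveI : Fact (Nat.Prime 5) := ⟨by norm_num⟩
  have hmod := Equiv.Perm.card_compl_support_modEq hσ5
  have hone : σ.supportᶜ.card = 1 := by
    refine Finset.card_eq_one.2 ⟨⟨⟨0, C.mov.zero_mem⟩, C.fr.qf.zero⟩, Finset.ext fun y => ?_⟩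
    rw [Finset.mem_compl, Equiv.Perm.mem_support, not_not, Finset.mem_singleton]
    constructor
    · intro hy
      refine Subtype.ext (Subtype.ext (C.eq_zero_of_both ?_ y.1.2))
      exact C.mem_fix.2 (congrArg (fun w : {y : C.mov // q8 y = 0} => (w.1 : V8)) hy)
    · rintro rfl
      refine Subtype.ext (Subtype.ext ?_)
      show C.lin 0 = 0
      exact map_zero _
  rw [hone, ← Nat.card_eq_fintype_card, hMc] at hmod
  replace hmod : M₀.card % 5 = 1 := hmod.symm
  have hF16 : F₀.card < 17 := by have := F₀.card_le_univ; omega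
  have hM16 : M₀.card < 17 := by have := M₀.card_le_univ; omega
  rw [hFc, hMc]
  exact solve_count' ⟨_, hF16⟩ ⟨_, hM16⟩ heq hmod

theorem exists_five {W : Submodule (ZMod 2) V8} (h6 : Nat.card {x : W // q8 x = 0} = 6) :
    ∃ p : Fin 5 → V8, Function.Injective p ∧ (∀ i, p i ∈ W) ∧ (∀ i, q8 (p i) = 0) ∧
      (∀ i, p i ≠ 0) ∧ ∀ x ∈ W, q8 x = 0 → x ≠ 0 → ∃ i, x = p i := by
  classical
  haveI : Fintype {x : W // q8 x = 0} := Fintype.ofFinite _
  rw [Nat.card_eq_fintype_card] at h6
  let o : {x : W // q8 x = 0} := ⟨0, C.fr.qf.zero⟩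
  obtain ⟨e⟩ : Nonempty (Fin 5 ≃ {x : {x : W // q8 x = 0} // x ≠ o}) :=
    ⟨(Fintype.equivFinOfCardEq (by rw [Fintype.card_subtype_compl, h6, Fintype.card_subtype_eq])).symm⟩
  refine ⟨fun i => (e i).1.1.1, fun i j h => e.injective (Subtype.ext (Subtype.ext (Subtype.ext h))),
    fun i => (e i).1.1.2, fun i => (e i).1.2, fun i h => (e i).2 (Subtype.ext (Subtype.ext h)),
    fun x hx hq h0 => ?_⟩
  refine ⟨e.symm ⟨⟨⟨x, hx⟩, hq⟩, fun h => h0 (congrArg (fun w : {x : W // q8 x = 0} => w.1.1) h)⟩, ?_⟩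
  simp only [Equiv.apply_symm_apply]

theorem exists_mov_pent : ∃ r : Fin 5 → V8, Pent q8 b8 C.mov r ∧
    ∀ i, C.fr.act b (r i) = r (i + 1) := by
  obtain ⟨p, hpi, hpm, hps, hp0, hpo⟩ := C.exists_five C.counts.2
  let r : Fin 5 → V8 := fun i => C.fr.act (b ^ (i : ℕ)) (p 0)
  have hstep : ∀ i, C.fr.act b (r i) = r (i + 1) := by
    intro i
    simp only [r]
    rw [← C.act_pow_succ]
    fin_cases i <;> first
      | rfl
      | (show C.fr.act (b ^ 5) (p 0) = C.fr.act (b ^ 0) (p 0); rw [C.pow_five, pow_zero])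
  have hm : ∀ n : ℕ, C.fr.act (b ^ n) (p 0) ∈ C.mov := by
    intro n
    induction n with
    | zero => rw [pow_zero, C.fr.act_one]; exact hpm 0
    | succ n ih => rw [C.act_pow_succ]; exact C.act_mov ih
  have hne : ∀ i, r i ≠ 0 := fun i e => hp0 0 (by
    have e' := congrArg (C.fr.act (b ^ (i : ℕ))⁻¹) e
    have h0 := C.fr.act_smul (Commute.inv_left (C.powz (i : ℕ))).eq 0 0
    simp only [zero_smul] at h0
    rwa [C.fr.act_inv_act (C.powz _), h0] at e')
  have hinj : Function.Injective r := by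
    intro i j e
    by_contra hij
    have hper : ∀ k : Fin 5, r (k + (j - i)) = r k := by
      have hsh : ∀ m : Fin 5, r (i + m) = r (j + m) := by
        intro m
        induction m using Fin.induction with
        | zero => rw [add_zero, add_zero, e]
        | succ m ih => rw [← Fin.coeSucc_eq_succ, ← add_assoc, ← add_assoc, ← hstep, ← hstep, ih]
      intro k
      have := hsh (k - i)
      rw [add_sub_cancel] at this
      rw [show k + (j - i) = j + (k - i) by abel, ← this]
    set d := j - i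
    have hd : d ≠ 0 := fun h => hij (sub_eq_zero.1 h).symm
    have hcov : ∀ d : Fin 5, d ≠ 0 → (1 : Fin 5) = d ∨ 1 = d + d ∨ 1 = d + d + d ∨
        1 = d + d + d + d := by decide
    have h1 : r 1 = r 0 := by
      rcases hcov d hd with h | h | h | h <;> rw [h] <;> conv_rhs => rw [← hper, zero_add]
      all_goals simp [hper]
    refine hne 0 (C.eq_zero_of_both (C.mem_fix.2 ?_) (hm 0))
    rw [hstep, zero_add, h1]
  have hrs : ∀ i, q8 (r i) = 0 := fun i => (C.fr.act_q (C.powz _) _).trans (hps 0)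
  have hro : ∀ x ∈ C.mov, q8 x = 0 → x ≠ 0 → ∃ i, x = r i := by
    intro x hx hq h0
    choose f hf using fun i => hpo (r i) (hm _) (hrs i) (hne i)
    have hfi : Function.Injective f := fun i j e => hinj (by rw [hf i, hf j, e])
    obtain ⟨k, rfl⟩ := hpo x hx hq h0
    obtain ⟨i, rfl⟩ := Finite.surjective_of_injective hfi k
    exact ⟨i, (hf i).symm⟩
  exact ⟨r, Pent.of_points C.fr.qf C.card_mov C.nd_mov (fun i => hm _) hrs
    (pair_of_cyclic C.fr.qf C.card_mov (fun i => hm _) hne hinj hrs hro (C.fr.act_B C.bz) hstep)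
    hro, hstep⟩

theorem exists_fix_pent (hminus : ∀ A : Subgroup G, A ≤ Q ⊓ Subgroup.centralizer ({b} : Set G) →
      (∀ x ∈ A, x * x = 1) → (∀ x ∈ A, ∀ y ∈ A, x * y = y * x) → Nat.card A ≤ 4) :
    ∃ p : Fin 5 → V8, Pent q8 b8 C.fix p := by
  obtain ⟨p, hpi, hpm, hps, hp0, hpo⟩ := C.exists_five C.counts.1
  refine ⟨p, Pent.of_points C.fr.qf C.card_fix C.nd_fix hpm hps (fun i j hij => ?_) hpo⟩
  refine (z2 _).resolve_left fun h0 => ?_
  have hqf := C.fr.qf
  let W : Submodule (ZMod 2) V8 := Submodule.span (ZMod 2) {p i, p j}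
  have hWle : W ≤ C.fix := Submodule.span_le.2 (by
    rintro x (rfl | rfl)
    · exact hpm _
    · exact hpm _)
  have hz : ∀ x ∈ W, ∀ y ∈ W, b8 x y = 0 := by
    intro x hx y hy
    obtain ⟨a, a', rfl⟩ := Submodule.mem_span_pair.1 hx
    obtain ⟨c, c', rfl⟩ := Submodule.mem_span_pair.1 hy
    simp [hqf.self, h0, hqf.symm (p j) (p i)]
  have hq : ∀ x ∈ W, q8 x = 0 := by
    intro x hx
    obtain ⟨a, a', rfl⟩ := Submodule.mem_span_pair.1 hx
    rcases z2 a with rfl | rfl <;> rcases z2 a' with rfl | rfl <;>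
      simp [hqf.zero, hps, hqf.add, h0]
  have h4 : 3 ≤ Nat.card W := by
    let F : Fin 3 → W := ![0, ⟨p i, Submodule.subset_span (by simp)⟩,
      ⟨p j, Submodule.subset_span (by simp)⟩]
    have hF : Function.Injective F := by
      intro a c e
      have e' : ((F a : W) : V8) = F c := congrArg Subtype.val e
      fin_cases a <;> fin_cases c <;> first
        | rfl
        | exact absurd e' (hp0 _) | exact absurd e'.symm (hp0 _)
        | exact absurd (hpi e') hij | exact absurd (hpi e'.symm) hij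
    have := Nat.card_le_card_of_injective F hF
    simpa using this
  have hle : preSub C.fr W ≤ Q ⊓ Subgroup.centralizer ({b} : Set G) := by
    rw [← C.preSub_fix]
    exact fun a ha => ⟨ha.1, hWle ha.2⟩
  have := hminus (preSub C.fr W) hle (fun x hx => (C.fr.map_sq x hx.1).2 (hq _ hx.2))
    (fun x hx y hy => (C.fr.map_comm x hx.1 y hy.1).2 (hz _ hx.2 _ hy.2))
  rw [card_preSub] at this
  exact absurd (le_trans (Nat.mul_le_mul_left 2 h4) this) (by norm_num)

end Ctx

end Cfsg.Agent.Co1Five
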