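import Mathlib.GroupTheory.SpecificGroups.Alternating.Centralizer
import Cfsg.Agent.Co1Five.Space

/-!
The permutations of the ten singular points induced by elements commuting with an element of order
five.
-/

set_option autoImplicit false

namespace Cfsg.Agent.Co1Five

open Cfsg.Agent.ExtraTwo Cfsg.Agent.LargeExtra Cfsg.Agent.TTClass.OrthF2
open Cfsg.Agent.Co1Type

theorem comm_cyc5 : ∀ π : Equiv.Perm (Fin 5), π * cyc5 = cyc5 * π → π = cyc5 ^ (π 0 : ℕ) := by
  decide +kernel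

theorem cyc5_apply : ∀ i : Fin 5, cyc5 i = i + 1 := by decide +kernel

theorem three_cycle_form : ∀ π : Equiv.Perm (Fin 5), π.IsThreeCycle →
    ∃ i j k : Fin 5, i ≠ j ∧ i ≠ k ∧ j ≠ k ∧ π = Equiv.swap i k * Equiv.swap i j := by
  intro π hπ
  have key : ∀ π : Equiv.Perm (Fin 5), π ^ 3 = 1 → π ≠ 1 →
      ∃ i j k : Fin 5, i ≠ j ∧ i ≠ k ∧ j ≠ k ∧ π = Equiv.swap i k * Equiv.swap i j := by
    decide +kernel
  have h3 := hπ.orderOf
  exact key π (by rw [← h3, pow_orderOf_eq_one]) fun e => by rw [e, orderOf_one] at h3; norm_num at h3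

theorem alt_le_of_three_cycles {H : Subgroup (Equiv.Perm (Fin 5))}
    (hc : ∀ i j k : Fin 5, i ≠ j → i ≠ k → j ≠ k → Equiv.swap i k * Equiv.swap i j ∈ H) :
    alternatingGroup (Fin 5) ≤ H := by
  rw [← Equiv.Perm.closure_three_cycles_eq_alternating, Subgroup.closure_le]
  intro π hπ
  obtain ⟨i, j, k, hij, hik, hjk, rfl⟩ := three_cycle_form π hπ
  exact hc i j k hij hik hjk

theorem eq_alt_of_no_swap {H : Subgroup (Equiv.Perm (Fin 5))}
    (hle : alternatingGroup (Fin 5) ≤ H) (hns : ∀ i j : Fin 5, i ≠ j → Equiv.swap i j ∉ H) :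
    H = alternatingGroup (Fin 5) := by
  refine le_antisymm (fun π hπ => ?_) hle
  rw [Equiv.Perm.mem_alternatingGroup]
  refine (Int.units_eq_one_or _).resolve_right fun hs => hns 0 1 (by decide) ?_
  have he : π⁻¹ * Equiv.swap 0 1 ∈ alternatingGroup (Fin 5) := by
    rw [Equiv.Perm.mem_alternatingGroup, map_mul, map_inv, hs, Equiv.Perm.sign_swap (by decide)]
    rfl
  have := mul_mem hπ (hle he)
  rwa [mul_inv_cancel_left] at this

theorem alt_le_of_cyc {H : Subgroup (Equiv.Perm (Fin 5))} (h5 : cyc5 ∈ H) (h3 : cyc3 ∈ H) :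
    alternatingGroup (Fin 5) ≤ H := by
  refine alt_le_of_three_cycles fun i j k hij hik hjk => ?_
  obtain ⟨a, b, c, l, m, e⟩ := three_cycle_words i k j hik hij hjk.symm
  rw [e]
  exact mul_mem (mul_mem (mul_mem (mul_mem (pow_mem h5 _) (pow_mem h3 _)) (pow_mem h5 _))
    (pow_mem h3 _)) (pow_mem h5 _)

variable {G : Type*} [Group G] [Finite G] {z : G} {Q : Subgroup G} {φ : G → V8} {b : G}

/-- The pentads of the two subspaces. -/
structure Five (z : G) (Q : Subgroup G) (φ : G → V8) (b : G) (p r : Fin 5 → V8) : Prop where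
  ctx : Ctx z Q φ b
  hp : Pent q8 b8 ctx.fix p
  hr : Pent q8 b8 ctx.mov r
  shift : ∀ i, ctx.fr.act b (r i) = r (i + 1)
  p0 : p 0 = s8

namespace Five

variable {p r : Fin 5 → V8} (F : Five z Q φ b p r)
include F

/-- Acting as an element commuting with `b`. -/
def Comm (c : G) : Prop :=
  c * z = z * c ∧ ∀ x, F.ctx.fr.act c (F.ctx.fr.act b x) = F.ctx.fr.act b (F.ctx.fr.act c x)

theorem comm_of_commute {c : G} (hc : c * z = z * c) (hcb : c * b = b * c) : F.Comm c :=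
  ⟨hc, fun x => by rw [← F.ctx.fr.act_mul hc F.ctx.bz, hcb, F.ctx.fr.act_mul F.ctx.bz hc]⟩

theorem pres_fix {c : G} (hc : F.Comm c) : Pres q8 F.ctx.fix (F.ctx.fr.act c) := by
  refine ⟨F.ctx.fr.act_add hc.1, F.ctx.fr.act_q hc.1, fun x hx => F.ctx.mem_fix.2 ?_⟩
  rw [← hc.2, F.ctx.mem_fix.1 hx]

theorem pres_mov {c : G} (hc : F.Comm c) : Pres q8 F.ctx.mov (F.ctx.fr.act c) := by
  refine ⟨F.ctx.fr.act_add hc.1, F.ctx.fr.act_q hc.1, fun x hx => F.ctx.mem_mov.2 ?_⟩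
  let L : V8 →ₗ[ZMod 2] V8 :=
    { toFun := F.ctx.fr.act c, map_add' := F.ctx.fr.act_add hc.1, map_smul' := F.ctx.fr.act_smul hc.1 }
  have hn : ∀ (n : ℕ) y, (F.ctx.lin ^ n) (L y) = L ((F.ctx.lin ^ n) y) := by
    intro n
    induction n with
    | zero => intro y; rfl
    | succ n ih =>
      intro y
      rw [pow_succ', Module.End.mul_apply, Module.End.mul_apply, ih]
      exact (hc.2 _).symm
  have e : F.ctx.avg (L x) = L (F.ctx.avg x) := by
    have h1 := hn 1 x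
    rw [pow_one] at h1
    simp only [Ctx.avg_apply, map_add, hn, h1]
  show F.ctx.avg (L x) = 0
  rw [e, F.ctx.mem_mov.1 hx, map_zero]

open Classical in
/-- The permutation of the fixed points. -/
noncomputable def perm0 (c : G) : Equiv.Perm (Fin 5) :=
  if h : F.Comm c then (F.hp.exists_perm (F.pres_fix h)).choose else 1

open Classical in
/-- The permutation of the moved points. -/
noncomputable def perm1 (c : G) : Equiv.Perm (Fin 5) :=
  if h : F.Comm c then (F.hr.exists_perm (F.pres_mov h)).choose else 1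

theorem perm0_spec {c : G} (hc : F.Comm c) (i : Fin 5) :
    F.ctx.fr.act c (p i) = p (F.perm0 c i) := by
  rw [perm0, dif_pos hc]
  exact (F.hp.exists_perm (F.pres_fix hc)).choose_spec i

theorem perm1_spec {c : G} (hc : F.Comm c) (i : Fin 5) :
    F.ctx.fr.act c (r i) = r (F.perm1 c i) := by
  rw [perm1, dif_pos hc]
  exact (F.hr.exists_perm (F.pres_mov hc)).choose_spec i

theorem perm0_eq {c : G} (hc : F.Comm c) {π : Equiv.Perm (Fin 5)}
    (h : ∀ i, F.ctx.fr.act c (p i) = p (π i)) : F.perm0 c = π :=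
  Equiv.ext fun i => F.hp.inj ((F.perm0_spec hc i).symm.trans (h i))

theorem perm1_eq {c : G} (hc : F.Comm c) {π : Equiv.Perm (Fin 5)}
    (h : ∀ i, F.ctx.fr.act c (r i) = r (π i)) : F.perm1 c = π :=
  Equiv.ext fun i => F.hr.inj ((F.perm1_spec hc i).symm.trans (h i))

theorem comm_one : F.Comm 1 := ⟨by simp, fun x => by simp [F.ctx.fr.act_one]⟩

theorem comm_mul {c d : G} (hc : F.Comm c) (hd : F.Comm d) : F.Comm (c * d) :=
  ⟨F.ctx.fr.mul_comm_z hc.1 hd.1, fun x => by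
    rw [F.ctx.fr.act_mul hc.1 hd.1, F.ctx.fr.act_mul hc.1 hd.1, hd.2, hc.2]⟩

theorem perm0_mul {c d : G} (hc : F.Comm c) (hd : F.Comm d) :
    F.perm0 (c * d) = F.perm0 c * F.perm0 d :=
  F.perm0_eq (F.comm_mul hc hd) fun i => by
    rw [F.ctx.fr.act_mul hc.1 hd.1, F.perm0_spec hd, F.perm0_spec hc]; rfl

theorem perm1_mul {c d : G} (hc : F.Comm c) (hd : F.Comm d) :
    F.perm1 (c * d) = F.perm1 c * F.perm1 d :=
  F.perm1_eq (F.comm_mul hc hd) fun i => by
    rw [F.ctx.fr.act_mul hc.1 hd.1, F.perm1_spec hd, F.perm1_spec hc]; rfl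

theorem perm0_one : F.perm0 1 = 1 :=
  F.perm0_eq F.comm_one fun i => by rw [F.ctx.fr.act_one]; rfl

theorem perm1_one : F.perm1 1 = 1 :=
  F.perm1_eq F.comm_one fun i => by rw [F.ctx.fr.act_one]; rfl

theorem comm_b : F.Comm b := F.comm_of_commute F.ctx.bz rfl

theorem comm_bpow (n : ℕ) : F.Comm (b ^ n) :=
  F.comm_of_commute (F.ctx.powz n) (Commute.pow_self b n).eq

theorem perm0_bpow (n : ℕ) : F.perm0 (b ^ n) = 1 :=
  F.perm0_eq (F.comm_bpow n) fun i => by
    rw [← F.ctx.lin_pow, F.ctx.pow_fix (F.hp.mem i)]; rfl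

theorem perm1_b : F.perm1 b = cyc5 :=
  F.perm1_eq F.comm_b fun i => by rw [F.shift, cyc5_apply]

theorem perm1_bpow (n : ℕ) : F.perm1 (b ^ n) = cyc5 ^ n := by
  induction n with
  | zero => rw [pow_zero, pow_zero, F.perm1_one]
  | succ n ih => rw [pow_succ, F.perm1_mul (F.comm_bpow n) F.comm_b, ih, F.perm1_b, pow_succ]

theorem eq_on_fix {c : G} (hc : F.Comm c) (h : F.perm0 c = 1) {x : V8} (hx : x ∈ F.ctx.fix) :
    F.ctx.fr.act c x = x :=
  F.hp.eq_of_perm (M' := id) (F.ctx.fr.act_add hc.1) (fun _ _ => rfl) (π := 1)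
    (fun i => by rw [F.perm0_spec hc, h]) (fun _ => rfl) hx

theorem eq_on_mov {c : G} (hc : F.Comm c) (h : F.perm1 c = 1) {x : V8} (hx : x ∈ F.ctx.mov) :
    F.ctx.fr.act c x = x :=
  F.hr.eq_of_perm (M' := id) (F.ctx.fr.act_add hc.1) (fun _ _ => rfl) (π := 1)
    (fun i => by rw [F.perm1_spec hc, h]) (fun _ => rfl) hx

theorem decomp (x : V8) :
    ∃ v ∈ F.ctx.fix, ∃ w ∈ F.ctx.mov, x = v + w :=
  ⟨_, (F.ctx.split x).1, _, (F.ctx.split x).2, (F.ctx.splitEquiv.symm_apply_apply x).symm⟩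

theorem mem_Q {c : G} (hc : F.Comm c) (h0 : F.perm0 c = 1) (h1 : F.perm1 c = 1) : c ∈ Q :=
  F.ctx.fr.mem_of_act hc.1 fun x => by
    obtain ⟨v, hv, w, hw, rfl⟩ := F.decomp x
    rw [F.ctx.fr.act_add hc.1, F.eq_on_fix hc h0 hv, F.eq_on_mov hc h1 hw]

theorem no_swap0 {c : G} (hc : F.Comm c) (h1 : F.perm1 c = 1) {i j : Fin 5} (hij : i ≠ j) :
    F.perm0 c ≠ Equiv.swap i j := by
  intro h0
  refine F.ctx.noTrans c hc.1 (p i + p j) (F.hp.q_add hij) fun x => ?_
  obtain ⟨v, hv, w, hw, rfl⟩ := F.decomp x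
  have hu : p i + p j ∈ F.ctx.fix := add_mem (F.hp.mem i) (F.hp.mem j)
  have hw0 : b8 w (p i + p j) = 0 := by rw [F.ctx.fr.qf.symm]; exact F.ctx.perp hu hw
  rw [F.ctx.fr.act_add hc.1, F.eq_on_mov hc h1 hw, LinearMap.map_add₂, hw0, add_zero,
    add_right_comm]
  congr 1
  refine F.hp.eq_of_perm (M' := fun t => t + b8 t (p i + p j) • (p i + p j))
    (F.ctx.fr.act_add hc.1) (fun s t => by simp [add_smul]; abel) (π := Equiv.swap i j)
    (fun k => by rw [F.perm0_spec hc, h0]) (fun k => ?_) hv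
  have hqf := F.ctx.fr.qf
  rcases eq_or_ne k i with rfl | hki
  · simp [hqf.self, F.hp.pair k j hij, add_left_self]
  rcases eq_or_ne k j with rfl | hkj
  · simp [hqf.self, F.hp.pair k i hki, Equiv.swap_apply_right]
    rw [add_comm (p i) (p k), add_left_self]
  · simp [F.hp.pair k i hki, F.hp.pair k j hkj, Equiv.swap_apply_of_ne_of_ne hki hkj,
      CharTwo.add_self_eq_zero]

theorem no_swap1 {c : G} (hc : c * z = z * c) (h0 : ∀ x ∈ F.ctx.fix, F.ctx.fr.act c x = x)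
    {i j : Fin 5} (hij : i ≠ j) : ¬ ∀ k, F.ctx.fr.act c (r k) = r (Equiv.swap i j k) := by
  intro h1
  refine F.ctx.noTrans c hc (r i + r j) (F.hr.q_add hij) fun x => ?_
  obtain ⟨v, hv, w, hw, rfl⟩ := F.decomp x
  have hu : r i + r j ∈ F.ctx.mov := add_mem (F.hr.mem i) (F.hr.mem j)
  rw [F.ctx.fr.act_add hc, h0 v hv, LinearMap.map_add₂, F.ctx.perp hv hu, zero_add,
    add_assoc]
  congr 1
  refine F.hr.eq_of_perm (M' := fun t => t + b8 t (r i + r j) • (r i + r j))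
    (F.ctx.fr.act_add hc) (fun s t => by simp [add_smul]; abel) (π := Equiv.swap i j)
    h1 (fun k => ?_) hw
  have hqf := F.ctx.fr.qf
  rcases eq_or_ne k i with rfl | hki
  · simp [hqf.self, F.hr.pair k j hij, add_left_self]
  rcases eq_or_ne k j with rfl | hkj
  · simp [hqf.self, F.hr.pair k i hki, Equiv.swap_apply_right]
    rw [add_comm (r i) (r k), add_left_self]
  · simp [F.hr.pair k i hki, F.hr.pair k j hkj, Equiv.swap_apply_of_ne_of_ne hki hkj,
      CharTwo.add_self_eq_zero]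

/-- A pair of vectors of one subspace fixes the other. -/
theorem lift_cycle {W W' : Submodule (ZMod 2) V8} {t : Fin 5 → V8} (ht : Pent q8 b8 W t)
    (hperp : ∀ x ∈ W', ∀ y ∈ W, b8 x y = 0) {i j k : Fin 5} (hij : i ≠ j) (hik : i ≠ k)
    (hjk : j ≠ k) : ∃ c, c * z = z * c ∧ (∀ x ∈ W', F.ctx.fr.act c x = x) ∧
      ∀ l, F.ctx.fr.act c (t l) = t ((Equiv.swap i k * Equiv.swap i j) l) := by
  obtain ⟨hu, hv, huv, hcyc⟩ := ht.pairMap_cycle hij hik hjk
  obtain ⟨c, hc, hca⟩ := F.ctx.fr.act_pair hu hv huv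
  refine ⟨c, hc, fun x hx => ?_, fun l => by rw [hca, hcyc]⟩
  rw [hca, pairMap, hperp x hx _ (add_mem (ht.mem i) (ht.mem j)),
    hperp x hx _ (add_mem (ht.mem j) (ht.mem k))]
  simp

theorem lift_fix {i j k : Fin 5} (hij : i ≠ j) (hik : i ≠ k) (hjk : j ≠ k) :
    ∃ c, c * z = z * c ∧ c * b = b * c ∧ F.perm0 c = Equiv.swap i k * Equiv.swap i j ∧
      F.perm1 c = 1 := by
  obtain ⟨c, hc, hcm, hcp⟩ := F.lift_cycle F.hp (W' := F.ctx.mov)
    (fun x hx y hy => by rw [F.ctx.fr.qf.symm]; exact F.ctx.perp hy hx) hij hik hjk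
  set π := Equiv.swap i k * Equiv.swap i j
  have h := F.ctx.fr
  have hbi : b⁻¹ * z = z * b⁻¹ := (Commute.inv_left F.ctx.bz).eq
  have hkey : ∀ x, h.act c (h.act b x) = h.act b (h.act c x) := fun x => by
    obtain ⟨v, hv, w, hw, rfl⟩ := F.decomp x
    rw [h.act_add F.ctx.bz, h.act_add hc, h.act_add hc, h.act_add F.ctx.bz,
      F.ctx.mem_fix.1 hv, hcm _ (F.ctx.act_mov hw), hcm _ hw]
    congr 1
    obtain ⟨e, rfl⟩ := F.hp.span v hv
    rw [F.hp.map_comb (h.act_add hc) hcp, F.ctx.mem_fix.1 (F.hp.mem_comb _)]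
  -- a coset of `Q` stable under `b`
  let S := {x : G // c⁻¹ * x ∈ Q}
  have hcardS : Nat.card S = 512 := by
    have e : S ≃ Q := ⟨fun x => ⟨c⁻¹ * x.1, x.2⟩, fun a => ⟨c * a.1, by
      rw [inv_mul_cancel_left]; exact a.2⟩, fun x => Subtype.ext (by simp), fun a => Subtype.ext (by simp)⟩
    rw [Nat.card_congr e, h.cardQ]
    rfl
  have hstab : ∀ x, c⁻¹ * x ∈ Q → c⁻¹ * (b * x * b⁻¹) ∈ Q := by
    intro x hx
    have hxz : x * z = z * x := by
      have := h.mul_comm_z hc (h.ci.comm _ hx)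
      rwa [mul_inv_cancel_left] at this
    have hxa : ∀ v, h.act x v = h.act c v := fun v => by
      conv_lhs => rw [← mul_inv_cancel_left c x]
      rw [h.act_mul hc (h.ci.comm _ hx), h.act_of_mem hx]
    have hci : c⁻¹ * z = z * c⁻¹ := (Commute.inv_left hc).eq
    have hbx : b * x * b⁻¹ * z = z * (b * x * b⁻¹) := h.conj_comm_z F.ctx.bz hxz
    refine h.mem_of_act (h.mul_comm_z hci hbx) fun v => ?_
    rw [h.act_mul hci hbx]
    obtain ⟨w, rfl⟩ : ∃ w, h.act b w = v := ⟨_, h.act_act_inv F.ctx.bz v⟩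
    rw [h.act_conj F.ctx.bz hxz, hxa, ← hkey, h.act_inv_act hc]
  let σ : Equiv.Perm S := Equiv.ofBijective (fun x => ⟨b * x.1 * b⁻¹, hstab _ x.2⟩)
    (Finite.injective_iff_bijective.1 fun x y e => Subtype.ext (by
      simpa using congrArg Subtype.val e))
  have hσn : ∀ (n : ℕ) x, ((σ ^ n) x).1 = b ^ n * x.1 * (b ^ n)⁻¹ := by
    intro n
    induction n with
    | zero => intro x; simp
    | succ n ih =>
      intro x
      rw [pow_succ', Equiv.Perm.mul_apply]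
      show b * ((σ ^ n) x).1 * b⁻¹ = _
      rw [ih, pow_succ']
      group
  have hσ5 : σ ^ (5 ^ 1) = 1 := Equiv.ext fun x => Subtype.ext (by
    rw [pow_one, hσn, F.ctx.pow_five]; simp)
  haveI : Fintype S := Fintype.ofFinite _
  haveI : Fact (Nat.Prime 5) := ⟨by norm_num⟩
  obtain ⟨⟨d, hd⟩, hfix⟩ := Equiv.Perm.exists_fixed_point_of_prime (p := 5) (n := 1)
    (by rw [← Nat.card_eq_fintype_card, hcardS]; norm_num) hσ5
  have hdb : b * d = d * b := mul_inv_eq_iff_eq_mul.1 (congrArg Subtype.val hfix)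
  have hdz : d * z = z * d := by
    have := h.mul_comm_z hc (h.ci.comm _ hd)
    rwa [mul_inv_cancel_left] at this
  have hda : ∀ v, h.act d v = h.act c v := fun v => by
    conv_lhs => rw [← mul_inv_cancel_left c d]
    rw [h.act_mul hc (h.ci.comm _ hd), h.act_of_mem hd]
  have hcomm := F.comm_of_commute hdz hdb.symm
  exact ⟨d, hdz, hdb.symm, F.perm0_eq hcomm fun l => by rw [hda, hcp],
    F.perm1_eq hcomm fun l => by rw [hda, hcm _ (F.hr.mem l)]; rfl⟩

end Five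

end Cfsg.Agent.Co1Five
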