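import Cfsg.Agent.Co1Type.Two
import Cfsg.Agent.Co1Type.Fixer
import Cfsg.Agent.Co1Five.Perms

/-!
The centraliser of `z` in the centraliser of the element of order five, and an involution of it
which is not conjugate to `z`.
-/

set_option autoImplicit false

namespace Cfsg.Agent.Co1Five

open Cfsg.Agent.ExtraTwo Cfsg.Agent.LargeExtra Cfsg.Agent.TTClass.OrthF2
open Cfsg.Agent.Co1Type

namespace Five

variable {G : Type*} [Group G] [Finite G] {z : G} {Q : Subgroup G} {φ : G → V8} {b : G}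
  {p r : Fin 5 → V8} (F : Five z Q φ b p r)
include F

omit [Finite G] in
theorem mem_cbz {c : G} : c ∈ Subgroup.centralizer ({b} : Set G) ⊓ Subgroup.centralizer ({z} : Set G) ↔
    c * b = b * c ∧ c * z = z * c := by
  simp [Subgroup.mem_inf, Subgroup.mem_centralizer_singleton_iff]

theorem comm_of_mem {c : G}
    (hc : c ∈ Subgroup.centralizer ({b} : Set G) ⊓ Subgroup.centralizer ({z} : Set G)) : F.Comm c :=
  F.comm_of_commute (F.mem_cbz.1 hc).2 (F.mem_cbz.1 hc).1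

/-- The permutations of the fixed points as a homomorphism. -/
noncomputable def perm0Hom :
    ↥(Subgroup.centralizer ({b} : Set G) ⊓ Subgroup.centralizer ({z} : Set G)) →*
      Equiv.Perm (Fin 5) where
  toFun c := F.perm0 c
  map_one' := F.perm0_one
  map_mul' c d := F.perm0_mul (F.comm_of_mem c.2) (F.comm_of_mem d.2)

theorem perm1_pow {c : G} (hc : c * b = b * c) (hz : c * z = z * c) :
    F.perm1 c = cyc5 ^ (F.perm1 c 0 : ℕ) := by
  refine comm_cyc5 _ ?_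
  have hcc := F.comm_of_commute hz hc
  rw [← F.perm1_b, ← F.perm1_mul hcc F.comm_b, hc, F.perm1_mul F.comm_b hcc]

theorem strip {c : G} (hc : c * b = b * c) (hz : c * z = z * c) :
    ∃ n : ℕ, F.perm1 (c * b ^ n) = 1 ∧ F.perm0 (c * b ^ n) = F.perm0 c ∧
      (c * b ^ n) * b = b * (c * b ^ n) ∧ (c * b ^ n) * z = z * (c * b ^ n) := by
  have hcc := F.comm_of_commute hz hc
  refine ⟨5 - (F.perm1 c 0 : ℕ), ?_, ?_, ?_, F.ctx.fr.mul_comm_z hz (F.ctx.powz _)⟩
  · rw [F.perm1_mul hcc (F.comm_bpow _), F.perm1_bpow, F.perm1_pow hc hz, ← pow_add]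
    have : ((cyc5 ^ (F.perm1 c 0 : ℕ)) (0 : Fin 5) : ℕ) = (F.perm1 c 0 : ℕ) := by
      rw [← F.perm1_pow hc hz]
    rw [this, show (F.perm1 c 0 : ℕ) + (5 - (F.perm1 c 0 : ℕ)) = 5 by omega, cyc5_pow_five]
  · rw [F.perm0_mul hcc (F.comm_bpow _), F.perm0_bpow, mul_one]
  · rw [mul_assoc, (Commute.pow_self b _).eq, ← mul_assoc, hc, mul_assoc]

theorem range_perm0 : F.perm0Hom.range = alternatingGroup (Fin 5) := by
  refine eq_alt_of_no_swap (alt_le_of_three_cycles fun i j k hij hik hjk => ?_) fun i j hij h => ?_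
  · obtain ⟨c, hcz, hcb, h0, -⟩ := F.lift_fix hij hik hjk
    exact ⟨⟨c, F.mem_cbz.2 ⟨hcb, hcz⟩⟩, h0⟩
  · obtain ⟨⟨c, hc⟩, he⟩ := h
    obtain ⟨hcb, hcz⟩ := F.mem_cbz.1 hc
    obtain ⟨n, h1, h0, hb', hz'⟩ := F.strip hcb hcz
    exact F.no_swap0 (F.comm_of_commute hz' hb') h1 hij (h0.trans he)

theorem mem_ker_perm0 {c : G}
    (hc : c ∈ Subgroup.centralizer ({b} : Set G) ⊓ Subgroup.centralizer ({z} : Set G)) :
    F.perm0 c = 1 ↔ ∃ a ∈ Q ⊓ Subgroup.centralizer ({b} : Set G), ∃ n : ℕ, c = a * b ^ n := by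
  obtain ⟨hcb, hcz⟩ := F.mem_cbz.1 hc
  constructor
  · intro h0
    obtain ⟨n, h1, h0', hb', hz'⟩ := F.strip hcb hcz
    refine ⟨c * b ^ n, ⟨F.mem_Q (F.comm_of_commute hz' hb') (h0'.trans h0) h1,
      Subgroup.mem_centralizer_singleton_iff.2 hb'⟩, (orderOf b - 1) * n, ?_⟩
    rw [mul_assoc, ← pow_add, F.ctx.border, show n + (5 - 1) * n = 5 * n by ring, pow_mul,
      F.ctx.pow_five, one_pow, mul_one]
  · rintro ⟨a, ⟨haQ, hab⟩, n, rfl⟩
    have hac := F.comm_of_commute (F.ctx.fr.ci.comm a haQ) (Subgroup.mem_centralizer_singleton_iff.1 hab)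
    rw [F.perm0_mul hac (F.comm_bpow n), F.perm0_bpow, mul_one]
    exact F.perm0_eq hac fun i => by rw [F.ctx.fr.act_of_mem haQ]; rfl

theorem card_ker : Nat.card F.perm0Hom.ker = 160 := by
  let f : ↥(Q ⊓ Subgroup.centralizer ({b} : Set G)) × Fin 5 → F.perm0Hom.ker := fun x =>
    ⟨⟨x.1.1 * b ^ (x.2 : ℕ), mul_mem (Subgroup.mem_inf.2 ⟨x.1.2.2,
        Subgroup.mem_centralizer_singleton_iff.2 (F.ctx.fr.ci.comm _ x.1.2.1)⟩)
      (pow_mem (F.mem_cbz.2 ⟨rfl, F.ctx.bz⟩) _)⟩, by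
      rw [MonoidHom.mem_ker]
      exact (F.mem_ker_perm0 (mul_mem (Subgroup.mem_inf.2 ⟨x.1.2.2,
        Subgroup.mem_centralizer_singleton_iff.2 (F.ctx.fr.ci.comm _ x.1.2.1)⟩)
      (pow_mem (F.mem_cbz.2 ⟨rfl, F.ctx.bz⟩) _))).2 ⟨_, x.1.2, _, rfl⟩⟩
  have hf : Function.Bijective f := by
    constructor
    · rintro ⟨⟨a, ha⟩, i⟩ ⟨⟨a', ha'⟩, j⟩ e
      have e' : a * b ^ (i : ℕ) = a' * b ^ (j : ℕ) := congrArg (fun t : F.perm0Hom.ker => t.1.1) e
      have h1 := congrArg F.perm1 e'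
      have hac : ∀ {a}, a ∈ Q ⊓ Subgroup.centralizer ({b} : Set G) → F.Comm a ∧ F.perm1 a = 1 :=
        fun {a} ha => by
          have hc := F.comm_of_commute (F.ctx.fr.ci.comm a ha.1) (Subgroup.mem_centralizer_singleton_iff.1 ha.2)
          exact ⟨hc, F.perm1_eq hc fun k => by rw [F.ctx.fr.act_of_mem ha.1]; rfl⟩
      rw [F.perm1_mul (hac ha).1 (F.comm_bpow _), F.perm1_mul (hac ha').1 (F.comm_bpow _),
        (hac ha).2, (hac ha').2, one_mul, one_mul, F.perm1_bpow, F.perm1_bpow] at h1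
      have key : ∀ i j : Fin 5, cyc5 ^ (i : ℕ) = cyc5 ^ (j : ℕ) → i = j := by decide +kernel
      obtain rfl := key i j h1
      exact Prod.ext (Subtype.ext (mul_right_cancel e')) rfl
    · rintro ⟨⟨c, hc⟩, hk⟩
      obtain ⟨a, ha, n, rfl⟩ := (F.mem_ker_perm0 hc).1 (MonoidHom.mem_ker.1 hk)
      refine ⟨⟨⟨a, ha⟩, ⟨n % 5, Nat.mod_lt _ (by norm_num)⟩⟩, Subtype.ext (Subtype.ext ?_)⟩
      show a * b ^ (n % 5) = a * b ^ n
      rw [← F.ctx.border, pow_mod_orderOf]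
  rw [← Nat.card_congr (Equiv.ofBijective f hf), Nat.card_prod, F.ctx.cardQb]
  simp

theorem card_cbz :
    Nat.card ↥(Subgroup.centralizer ({b} : Set G) ⊓ Subgroup.centralizer ({z} : Set G)) = 9600 := by
  rw [Subgroup.card_eq_card_quotient_mul_card_subgroup F.perm0Hom.ker,
    Nat.card_congr (QuotientGroup.quotientKerEquivRange F.perm0Hom).toEquiv, F.range_perm0,
    F.card_ker, nat_card_alternatingGroup, Nat.card_fin]
  rfl

/-- An involution of the centraliser of `b` and `z` not conjugate to `z`. -/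
theorem exists_outer (hnwc : ∃ g : G, g * z * g⁻¹ ∈ Q ∧ g * z * g⁻¹ ≠ z) :
    ∃ x : G, x * b = b * x ∧ x * z = z * x ∧ orderOf x = 2 ∧ ¬ IsConj z x := by
  obtain ⟨g, s, hA⟩ := F.ctx.fr.exists_at model hnwc
  obtain ⟨ua, va, yc, vc, hb⟩ := exists_base hA
  have h := F.ctx.fr
  have hqf := h.qf
  have hp0s : ∀ i j : Fin 5, i ≠ 0 → j ≠ 0 → b8 (p i + p j) s8 = 0 := fun i j hi hj => by
    rw [← F.p0, map_add, LinearMap.add_apply, F.hp.pair i 0 hi, F.hp.pair j 0 hj]; rfl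
  obtain ⟨i, j, k, hi, hj, hk, hij, hik, hjk, hf⟩ : ∃ i j k : Fin 5, i ≠ 0 ∧ j ≠ 0 ∧ k ≠ 0 ∧
      i ≠ j ∧ i ≠ k ∧ j ≠ k ∧ b8 (p i + p j) f8 = 0 := by
    simp only [map_add, LinearMap.add_apply]
    rcases z2 (b8 (p 1) f8 + b8 (p 2) f8) with e | e
    · exact ⟨1, 2, 3, by decide, by decide, by decide, by decide, by decide, by decide, e⟩
    rcases z2 (b8 (p 2) f8 + b8 (p 3) f8) with e' | e'
    · exact ⟨2, 3, 1, by decide, by decide, by decide, by decide, by decide, by decide, e'⟩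
    refine ⟨1, 3, 2, by decide, by decide, by decide, by decide, by decide, by decide, ?_⟩
    revert e e'
    generalize b8 (p 1) f8 = x, b8 (p 2) f8 = y, b8 (p 3) f8 = w
    revert x y w
    decide
  set w := p i + p j
  have hwF : w ∈ F.ctx.fix := add_mem (F.hp.mem i) (F.hp.mem j)
  have hwperp : perp2 b8 s8 f8 w := ⟨hp0s i j hi hj, hf⟩
  have hqw : q8 w = 1 := F.hp.q_add hij
  have hbs8 : F.ctx.fr.act b s8 = s8 := F.ctx.mem_fix.1 (F.p0 ▸ F.hp.mem 0)
  have hbs : b * s = s * b := (F.ctx.mem_fix_iff hA.mem).1 (by rw [hA.img, ← F.p0]; exact F.hp.mem 0)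
  -- a lift of the unipotent map commuting with `b`
  obtain ⟨u0, hu0⟩ := hA.exists_lift hwperp
  let S := {u : G // hA.HasW u w}
  have hmaps : ∀ u, hA.HasW u w → hA.HasW (b * u * b⁻¹) w := fun u hu => by
    have e : hA.fr.act b w = w := F.ctx.mem_fix.1 hwF
    have := hA.hasW_conj F.ctx.bz hbs hbs8 (by rw [e]; exact hwperp) hu
    rwa [e] at this
  haveI : Fintype S := Fintype.ofFinite _
  have hcardS : Fintype.card S ≤ 4 := by
    let f : Fin 4 → S := fun n => ⟨u0 * ![1, z, s, s * z] n, hA.hasW_mul_X hu0 (by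
      fin_cases n <;> simp [At.IsX])⟩
    have hf : Function.Surjective f := by
      rintro ⟨u, hu⟩
      obtain ⟨k, hk, rfl⟩ := hA.hasW_congr hu0 hu
      rcases hk with rfl | rfl | rfl | rfl
      · exact ⟨0, rfl⟩
      · exact ⟨1, rfl⟩
      · exact ⟨2, rfl⟩
      · exact ⟨3, rfl⟩
    simpa using Fintype.card_le_of_surjective f hf
  have hpos : 0 < Fintype.card S := Fintype.card_pos_iff.2 ⟨⟨u0, hu0⟩⟩
  let σ : Equiv.Perm S := Equiv.ofBijective (fun u => ⟨b * u.1 * b⁻¹, hmaps _ u.2⟩)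
    (Finite.injective_iff_bijective.1 fun x y e => Subtype.ext (by
      simpa using congrArg Subtype.val e))
  have hσn : ∀ (n : ℕ) x, ((σ ^ n) x).1 = b ^ n * x.1 * (b ^ n)⁻¹ := by
    intro n
    induction n with
    | zero => intro x; simp
    | succ n ih =>
      intro x
      rw [pow_succ', Equiv.Perm.mul_apply]
      show b * ((σ ^ n) x).1 * b⁻¹ = _
      rw [ih, pow_succ']
      group
  have hσ5 : σ ^ (5 ^ 1) = 1 := Equiv.ext fun x => Subtype.ext (by
    rw [pow_one, hσn, F.ctx.pow_five]; simp)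
  haveI : Fact (Nat.Prime 5) := ⟨by norm_num⟩
  obtain ⟨⟨u, hu⟩, hfix⟩ := Equiv.Perm.exists_fixed_point_of_prime (p := 5) (n := 1)
    (fun hd => by have := Nat.le_of_dvd hpos hd; omega) hσ5
  have hub : u * b = b * u := (mul_inv_eq_iff_eq_mul.1 (congrArg Subtype.val hfix)).symm
  obtain ⟨v, hv, hvφ⟩ := h.map_surj (p i + p k)
  have hvb : v * b = b * v := ((F.ctx.mem_fix_iff hv).1 (hvφ ▸ add_mem (F.hp.mem i) (F.hp.mem k))).symm
  have hvs : v * s = s * v := (hA.img_comm hv).2 (by rw [hvφ]; exact hp0s i k hi hk)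
  have hvw : b8 (φ v) w = 1 := by
    rw [hvφ]
    simp [w, hqf.self, F.hp.pair i j hij, F.hp.pair k i hik.symm, F.hp.pair k j hjk.symm]
    decide
  have hsq : u * v * (u * v) = 1 :=
    hA.sq_uv hu hv hvs hqw hvw (by rw [hvφ]; exact F.hp.q_add hik)
  have hvz := h.ci.comm v hv
  have hz : u * v * z = z * (u * v) := h.mul_comm_z hu.1.1 hvz
  have hact : ∀ t, F.ctx.fr.act (u * v) t = rho q8 b8 s8 w t := fun t => by
    rw [h.act_mul hu.1.1 hvz, h.act_of_mem hv, hu.2.2]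
  have hq : q8 (F.ctx.fr.act (u * v) f8 + f8) = 1 := by
    rw [hact, hA.md.hp.rho_f hwperp, hqw, one_smul, add_comm _ f8, add_assoc f8, add_left_self,
      hqf.add, hqw, hA.md.hp.qs, hwperp.1]
    rfl
  have hQ : u * v ∉ Q := fun e => by
    rw [h.act_of_mem e, add_self', hqf.zero] at hq
    exact zero_ne_one hq
  have hx1 : u * v ≠ 1 := fun e => hQ (e ▸ one_mem _)
  refine ⟨u * v, ?_, hz, orderOf_eq_prime (by rw [pow_two, hsq]) hx1, fun hzx => ?_⟩
  · rw [mul_assoc, hvb, ← mul_assoc, hub, mul_assoc]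
  · have hn : ¬ NearQ z Q (u * v) := fun hn => by
      rw [hA.alt_of_nearQ hz hsq hn] at hq
      exact zero_ne_one hq
    have hs : F.ctx.fr.act (u * v) s8 = s8 := by rw [hact, hA.md.hp.rho_s w hwperp]
    rcases classify_fixed hb hz hsq hQ hs (fun t ht => by
      show F.ctx.fr.act (u * v) t = t ∨ F.ctx.fr.act (u * v) t = t + s8
      rw [hact, hA.md.hp.rho_of_perp w ht]
      rcases z2 (b8 t w) with e | e <;> rw [e]
      · exact Or.inl (by simp)
      · exact Or.inr (by simp)) with hn' | ⟨c, -, -, he | he⟩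
    · exact hn hn'
    · exact not_conj_a hb (hzx.trans (isConj_iff.2 ⟨c, he⟩))
    · exact not_conj_c hb (hzx.trans (isConj_iff.2 ⟨c, he⟩))

end Five

end Cfsg.Agent.Co1Five
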