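import Cfsg.Agent.Co1Type.Count
import Cfsg.Agent.Co1Five.Perms

/-!
An element of the centraliser of the element of order five permuting a four-group cyclically.
-/

set_option autoImplicit false

namespace Cfsg.Agent.Co1Five

open Cfsg.Agent.ExtraTwo Cfsg.Agent.LargeExtra Cfsg.Agent.TTClass.OrthF2
open Cfsg.Agent.Co1Type

theorem card_pts8 : (Finset.univ.filter fun v : V8 => q8 v = 0 ∧ v ≠ 0).card = 135 := by
  decide +kernel

variable {G : Type*} [Group G] [Finite G] {z : G} {Q : Subgroup G} {φ : G → V8} {b g s : G}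

theorem card_involutions (h : Frame z Q q8 b8 φ) :
    Nat.card {x : G // x ∈ Q ∧ x * x = 1 ∧ x ≠ 1 ∧ x ≠ z} = 270 := by
  classical
  choose ψ hψ hψφ using h.map_surj
  let T := {v : V8 // q8 v = 0 ∧ v ≠ 0}
  have hzm : ∀ i : Bool, (if i then z else 1) ∈ Q := fun i => by cases i <;> simp [h.ci.mem]
  have hφz : ∀ (i : Bool) (v : V8), φ (ψ v * if i then z else 1) = v := fun i v => by
    rw [h.map_mul _ (hψ v) _ (hzm i), hψφ]
    cases i <;> simp [h.map_z, h.map_one]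
  let f : Bool × T → {x : G // x ∈ Q ∧ x * x = 1 ∧ x ≠ 1 ∧ x ≠ z} := fun x =>
    ⟨ψ x.2.1 * if x.1 then z else 1, mul_mem (hψ _) (hzm _),
      (h.map_sq _ (mul_mem (hψ _) (hzm _))).2 (by rw [hφz]; exact x.2.2.1),
      fun e => x.2.2.2 (by rw [← hφz x.1 x.2.1, e, h.map_one]),
      fun e => x.2.2.2 (by rw [← hφz x.1 x.2.1, e, h.map_z])⟩
  have hf : Function.Bijective f := by
    constructor
    · rintro ⟨i, v, hv⟩ ⟨j, w, hw⟩ e
      have e' : ψ v * (if i then z else 1) = ψ w * (if j then z else 1) := congrArg Subtype.val e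
      obtain rfl : v = w := by rw [← hφz i v, e', hφz]
      have := mul_left_cancel e'
      cases i <;> cases j <;> simp [h.ci.ne_one, h.ci.ne_one.symm] at this ⊢
    · rintro ⟨x, hx, h2, h1, hz⟩
      have hT : q8 (φ x) = 0 ∧ φ x ≠ 0 := ⟨(h.map_sq x hx).1 h2, h.map_ne hx h1 hz⟩
      rcases h.eq_or_of_map_eq hx (hψ (φ x)) (hψφ _).symm with e | e
      · exact ⟨(false, ⟨φ x, hT⟩), Subtype.ext (by simp [f, ← e])⟩
      · exact ⟨(true, ⟨φ x, hT⟩), Subtype.ext (by simp [f, ← e])⟩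
  rw [← Nat.card_congr (Equiv.ofBijective f hf), Nat.card_prod, Nat.card_eq_fintype_card (α := T),
    Fintype.card_subtype, card_pts8]
  simp

theorem not_dvd_stab (hA : At z Q q8 b8 φ s8 f8 g s)
    (hcardC : Nat.card ↥(Subgroup.centralizer ({z} : Set G)) = 512 * 174182400) {t : G} (ht : t ∈ Q)
    (h2 : t * t = 1) (h1 : t ≠ 1) (hz : t ≠ z) :
    ¬ 25 ∣ Nat.card ↥(Subgroup.centralizer ({z} : Set G) ⊓ Subgroup.centralizer ({t} : Set G)) := by
  have h := hA.fr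
  have hr : Set.range (fun k : Subgroup.centralizer ({z} : Set G) => (k : G) * t * (k : G)⁻¹) =
      {x | x ∈ Q ∧ x * x = 1 ∧ x ≠ 1 ∧ x ≠ z} := by
    ext x
    constructor
    · rintro ⟨⟨k, hk⟩, rfl⟩
      have hkz := Subgroup.mem_centralizer_singleton_iff.1 hk
      refine ⟨h.conj_memQ hkz ht, ?_, fun e => h1 (conj_eq_one_iff.1 e), fun e => hz ?_⟩
      · show k * t * k⁻¹ * (k * t * k⁻¹) = 1
        rw [show k * t * k⁻¹ * (k * t * k⁻¹) = k * (t * t) * k⁻¹ by group, h2]; group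
      · calc t = k⁻¹ * (k * t * k⁻¹) * k := by group
          _ = k⁻¹ * (z * k) := by rw [show k * t * k⁻¹ = z from e]; group
          _ = z := by rw [← hkz]; group
    · rintro ⟨hx, hx2, hx1, hxz⟩
      obtain ⟨c, hc, hcs⟩ := hA.exists_to ht h2 h1 hz
      obtain ⟨d, hd, hds⟩ := hA.exists_to hx hx2 hx1 hxz
      refine ⟨⟨d * c⁻¹, Subgroup.mem_centralizer_singleton_iff.2
        (h.mul_comm_z hd (Commute.inv_left hc).eq)⟩, ?_⟩
      show d * c⁻¹ * t * (d * c⁻¹)⁻¹ = x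
      rw [← hcs, ← hds]; group
  have e := card_orbit (Subgroup.centralizer ({z} : Set G)) t
  rw [hcardC, hr, show Nat.card ↥{x : G | x ∈ Q ∧ x * x = 1 ∧ x ≠ 1 ∧ x ≠ z} = 270 from
    card_involutions h] at e
  intro hd
  obtain ⟨k, hk⟩ := hd
  rw [hk] at e
  omega

/-- Two subgroups of order five in a group whose order is not divisible by twenty-five. -/
theorem exists_conj_zpowers {D : Subgroup G} (hD : ¬ 25 ∣ Nat.card D) {x y : G} (hx : x ∈ D)
    (hy : y ∈ D) (ox : orderOf x = 5) (oy : orderOf y = 5) :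
    ∃ d ∈ D, d * x * d⁻¹ ∈ Subgroup.zpowers y := by
  haveI : Fact (Nat.Prime 5) := ⟨by norm_num⟩
  have hS : ∀ w : D, orderOf (w : G) = 5 → ∃ S : Sylow 5 D, (S : Subgroup D) = Subgroup.zpowers w := by
    intro w hw
    have hcard : Nat.card (Subgroup.zpowers w) = 5 := by
      rw [Nat.card_zpowers, ← Subgroup.orderOf_coe w, hw]
    refine ⟨(IsPGroup.of_card (n := 1) (by rw [hcard, pow_one]) : IsPGroup 5 (Subgroup.zpowers w)).toSylow
      fun h5 => hD ?_, IsPGroup.toSylow_coe _ _⟩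
    have := Subgroup.card_mul_index (Subgroup.zpowers w)
    obtain ⟨k, hk⟩ := h5
    rw [hcard, hk] at this
    exact ⟨k, by omega⟩
  obtain ⟨S, hSx⟩ := hS ⟨x, hx⟩ ox
  obtain ⟨T, hTy⟩ := hS ⟨y, hy⟩ oy
  obtain ⟨⟨d, hd⟩, hdST⟩ := MulAction.exists_smul_eq D S T
  refine ⟨d, hd, ?_⟩
  have hm : (⟨d, hd⟩ : D) * ⟨x, hx⟩ * (⟨d, hd⟩ : D)⁻¹ ∈ (T : Subgroup D) := by
    rw [← hdST, Sylow.coe_subgroup_smul, Subgroup.mem_pointwise_smul_iff_inv_smul_mem,
      MulAut.smul_def, hSx]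
    rw [show ∀ u v : D, (MulAut.conj u)⁻¹ (u * v * u⁻¹) = v from fun u v => by
      rw [MulAut.inv_def, MulAut.conj_symm_apply]; group]
    exact Subgroup.mem_zpowers (⟨x, hx⟩ : D)
  rw [hTy] at hm
  obtain ⟨n, hn⟩ := Subgroup.mem_zpowers_iff.1 hm
  exact Subgroup.mem_zpowers_iff.2 ⟨n, congrArg Subtype.val hn⟩

/-- An element exchanging `z` and `t` and normalising `⟨b⟩`. -/
theorem exists_swap_norm (hA : At z Q q8 b8 φ s8 f8 g s)
    (hcardC : Nat.card ↥(Subgroup.centralizer ({z} : Set G)) = 512 * 174182400) {t : G} (ht : t ∈ Q)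
    (h2 : t * t = 1) (h1 : t ≠ 1) (hz : t ≠ z) (hb5 : orderOf b = 5) (hbz : b * z = z * b)
    (hbt : b * t = t * b) :
    ∃ n : G, n * z * n⁻¹ = t ∧ n * t * n⁻¹ = z ∧ n * b * n⁻¹ ∈ Subgroup.zpowers b := by
  have h := hA.fr
  obtain ⟨k, hk⟩ := hA.conj_of_mem ht h2 h1 hz
  have hk' : k⁻¹ * z * k ∈ Q := Frame.mem_map_conj.1 (h.pair (hk ▸ ht) (hk ▸ hz))
  have k2 : k⁻¹ * z * k * (k⁻¹ * z * k) = 1 := by
    rw [show k⁻¹ * z * k * (k⁻¹ * z * k) = k⁻¹ * (z * z) * k by group, h.ci.sq]; group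
  have k1 : k⁻¹ * z * k ≠ 1 := fun e => h.ci.ne_one (by
    calc z = k * (k⁻¹ * z * k) * k⁻¹ := by group
      _ = 1 := by rw [e]; group)
  have kz : k⁻¹ * z * k ≠ z := fun e => hz (by
    calc t = k * z * k⁻¹ := hk.symm
      _ = k * (k⁻¹ * z * k) * k⁻¹ := by rw [e]
      _ = z := by group)
  obtain ⟨c, hc, hcs⟩ := hA.exists_to hk' k2 k1 kz
  obtain ⟨d, hd, hds⟩ := hA.exists_to ht h2 h1 hz
  set e := d * c⁻¹ with he
  have hez : e * z = z * e := h.mul_comm_z hd (Commute.inv_left hc).eq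
  have hek : e * (k⁻¹ * z * k) * e⁻¹ = t := by rw [he, ← hcs, ← hds]; group
  set m := k * e⁻¹ with hm
  have hmz : m * z * m⁻¹ = t := by
    calc m * z * m⁻¹ = k * (e⁻¹ * (z * e)) * k⁻¹ := by rw [hm]; group
      _ = k * z * k⁻¹ := by rw [← hez]; group
      _ = t := hk
  have hmt : m * t * m⁻¹ = z := by rw [hm, ← hek]; group
  set D := Subgroup.centralizer ({z} : Set G) ⊓ Subgroup.centralizer ({t} : Set G)
  have hD : ∀ w, w ∈ D ↔ w * z = z * w ∧ w * t = t * w := fun w => by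
    simp [D, Subgroup.mem_inf, Subgroup.mem_centralizer_singleton_iff]
  have hbD : b ∈ D := (hD b).2 ⟨hbz, hbt⟩
  have hmb : m * b * m⁻¹ ∈ D := (hD _).2 ⟨by
      conv_lhs => rw [← hmt]
      conv_rhs => rw [← hmt]
      calc m * b * m⁻¹ * (m * t * m⁻¹) = m * (b * t) * m⁻¹ := by group
        _ = _ := by rw [hbt]; group, by
      conv_lhs => rw [← hmz]
      conv_rhs => rw [← hmz]
      calc m * b * m⁻¹ * (m * z * m⁻¹) = m * (b * z) * m⁻¹ := by group
        _ = _ := by rw [hbz]; group⟩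
  obtain ⟨w, hw, hwb⟩ := exists_conj_zpowers (not_dvd_stab hA hcardC ht h2 h1 hz) hmb hbD
    (by rw [← hb5]; exact MulEquiv.orderOf_eq (MulAut.conj m) b) hb5
  obtain ⟨hwz, hwt⟩ := (hD w).1 hw
  refine ⟨w * m, ?_, ?_, ?_⟩
  · rw [show w * m * z * (w * m)⁻¹ = w * (m * z * m⁻¹) * w⁻¹ by group, hmz, hwt, mul_inv_cancel_right]
  · rw [show w * m * t * (w * m)⁻¹ = w * (m * t * m⁻¹) * w⁻¹ by group, hmt, hwz, mul_inv_cancel_right]
  · rwa [show w * m * b * (w * m)⁻¹ = w * (m * b * m⁻¹) * w⁻¹ by group]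

/-- An element of three-power order of the centraliser of `b` moving `z` to `s`. -/
theorem exists_rot (hA : At z Q q8 b8 φ s8 f8 g s)
    (hcardC : Nat.card ↥(Subgroup.centralizer ({z} : Set G)) = 512 * 174182400)
    (hb5 : orderOf b = 5) (hbz : b * z = z * b) (hbs : b * s = s * b) :
    ∃ y : G, y * b = b * y ∧ (∃ k : ℕ, y ^ (3 ^ k) = 1) ∧ y * z * y⁻¹ = s ∧
      y * s * y⁻¹ = s * z := by
  have h := hA.fr
  have hsz := hA.s_comm_z
  have hs2 := hA.sq_s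
  have hsz2 : s * z * (s * z) = 1 := by
    rw [show s * z * (s * z) = s * (z * s) * z by group, ← hsz,
      show s * (s * z) * z = (s * s) * (z * z) by group, hs2, h.ci.sq, one_mul]
  have hsz1 : s * z ≠ 1 := fun e => hA.ne_z (by
    calc s = s * (z * z) := by rw [h.ci.sq, mul_one]
      _ = z := by rw [← mul_assoc, e, one_mul])
  have hszz : s * z ≠ z := fun e => hA.s_ne_one (mul_eq_right.1 e)
  obtain ⟨n1, a1, a2, a3⟩ := exists_swap_norm hA hcardC hA.mem hs2 hA.s_ne_one hA.ne_z hb5 hbz hbs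
  obtain ⟨n2, c1, c2, c3⟩ := exists_swap_norm hA hcardC (mul_mem hA.mem h.ci.mem) hsz2 hsz1 hszz hb5 hbz
    (by rw [← mul_assoc, hbs, mul_assoc, hbz, ← mul_assoc])
  set n := n1 * n2 with hn
  have hn2s : n2 * s * n2⁻¹ = s := by
    calc n2 * s * n2⁻¹ = n2 * (s * (z * z)) * n2⁻¹ := by rw [h.ci.sq, mul_one]
      _ = n2 * (s * z) * n2⁻¹ * (n2 * z * n2⁻¹) := by group
      _ = z * (s * z) := by rw [c2, c1]
      _ = s := by rw [← mul_assoc, ← hsz, mul_assoc, h.ci.sq, mul_one]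
  have hnz : n * z * n⁻¹ = s * z := by
    calc n * z * n⁻¹ = n1 * (n2 * z * n2⁻¹) * n1⁻¹ := by rw [hn]; group
      _ = n1 * s * n1⁻¹ * (n1 * z * n1⁻¹) := by rw [c1]; group
      _ = s * z := by rw [a1, a2, hsz]
  have hns : n * s * n⁻¹ = z := by
    calc n * s * n⁻¹ = n1 * (n2 * s * n2⁻¹) * n1⁻¹ := by rw [hn]; group
      _ = z := by rw [hn2s, a2]
  have hnsz : n * (s * z) * n⁻¹ = s := by
    calc n * (s * z) * n⁻¹ = n * s * n⁻¹ * (n * z * n⁻¹) := by group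
      _ = z * (s * z) := by rw [hns, hnz]
      _ = s := by rw [← mul_assoc, ← hsz, mul_assoc, h.ci.sq, mul_one]
  have hnb : n * b * n⁻¹ ∈ Subgroup.zpowers b := by
    obtain ⟨i, hi⟩ := Subgroup.mem_zpowers_iff.1 c3
    rw [show n * b * n⁻¹ = n1 * (n2 * b * n2⁻¹) * n1⁻¹ by rw [hn]; group, ← hi, ← conj_zpow]
    exact zpow_mem a3 i
  -- the fourth power centralises `b`
  obtain ⟨i, hi⟩ : ∃ i : Fin 5, b ^ (i : ℕ) = n * b * n⁻¹ := by
    have := (mem_powers_iff_mem_zpowers.2 hnb)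
    obtain ⟨j, hj⟩ := this
    refine ⟨⟨j % 5, Nat.mod_lt _ (by norm_num)⟩, ?_⟩
    show b ^ (j % 5) = _
    rw [← hb5, pow_mod_orderOf]
    exact hj
  have hstep : ∀ m : ℕ, n ^ m * b * (n ^ m)⁻¹ = b ^ ((i : ℕ) ^ m) := by
    intro m
    induction m with
    | zero => simp
    | succ m ih =>
      calc n ^ (m + 1) * b * (n ^ (m + 1))⁻¹ = n * (n ^ m * b * (n ^ m)⁻¹) * n⁻¹ := by
            rw [pow_succ']; group
        _ = (n * b * n⁻¹) ^ ((i : ℕ) ^ m) := by rw [ih, conj_pow]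
        _ = b ^ ((i : ℕ) ^ (m + 1)) := by rw [← hi, ← pow_mul, pow_succ']
  have hi0 : (i : ℕ) ≠ 0 := fun e => by
    rw [e, pow_zero] at hi
    rw [conj_eq_one_iff.1 hi.symm, orderOf_one] at hb5
    norm_num at hb5
  have hn4 : Commute (n ^ 4) b := by
    refine mul_inv_eq_iff_eq_mul.1 ?_
    rw [hstep, ← pow_mod_orderOf, hb5]
    have : ∀ i : Fin 5, (i : ℕ) ≠ 0 → (i : ℕ) ^ 4 % 5 = 1 := by decide
    rw [this i hi0, pow_one]
  -- pass to an element of three-power order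
  set N := orderOf (n ^ 4) with hN
  have hNpos : 0 < N := orderOf_pos _
  obtain ⟨k, M, hM, hkM⟩ := Nat.exists_eq_pow_mul_and_not_dvd hNpos.ne' 3 (by norm_num)
  set y0 := n ^ (4 * M) with hy0
  have hy0b : Commute y0 b := by rw [hy0, pow_mul]; exact hn4.pow_left M
  have hy0k : y0 ^ (3 ^ k) = 1 := by
    rw [hy0, pow_mul, ← pow_mul, mul_comm M, ← hkM, pow_orderOf_eq_one]
  have h3 : ∀ m : ℕ, n ^ (3 * m) * z * (n ^ (3 * m))⁻¹ = z ∧
      n ^ (3 * m) * s * (n ^ (3 * m))⁻¹ = s := by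
    intro m
    induction m with
    | zero => simp
    | succ m ih =>
      constructor
      · calc n ^ (3 * (m + 1)) * z * (n ^ (3 * (m + 1)))⁻¹ =
            n ^ (3 * m) * (n * (n * (n * z * n⁻¹) * n⁻¹) * n⁻¹) * (n ^ (3 * m))⁻¹ := by
              rw [Nat.mul_succ, pow_add, pow_three]; group
          _ = z := by rw [hnz, hnsz, hns, ih.1]
      · calc n ^ (3 * (m + 1)) * s * (n ^ (3 * (m + 1)))⁻¹ =
            n ^ (3 * m) * (n * (n * (n * s * n⁻¹) * n⁻¹) * n⁻¹) * (n ^ (3 * m))⁻¹ := by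
              rw [Nat.mul_succ, pow_add, pow_three]; group
          _ = s := by rw [hns, hnz, hnsz, ih.2]
  have hM4 : ¬ 3 ∣ 4 * M := fun hd => by
    rcases (Nat.Prime.dvd_mul Nat.prime_three).1 hd with e | e
    · norm_num at e
    · exact hM e
  rcases (by omega : 4 * M % 3 = 2 ∨ 4 * M % 3 = 1) with hr | hr
  · have e : y0 = n ^ (3 * (4 * M / 3)) * n ^ 2 := by rw [hy0, ← pow_add]; congr 1; omega
    refine ⟨y0, hy0b.eq, ⟨k, hy0k⟩, ?_, ?_⟩
    · calc y0 * z * y0⁻¹ = n ^ (3 * (4 * M / 3)) * (n * (n * z * n⁻¹) * n⁻¹) *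
            (n ^ (3 * (4 * M / 3)))⁻¹ := by rw [e, pow_two]; group
        _ = s := by rw [hnz, hnsz, (h3 _).2]
    · calc y0 * s * y0⁻¹ = n ^ (3 * (4 * M / 3)) * (n * (n * s * n⁻¹) * n⁻¹) *
            (n ^ (3 * (4 * M / 3)))⁻¹ := by rw [e, pow_two]; group
        _ = n ^ (3 * (4 * M / 3)) * s * (n ^ (3 * (4 * M / 3)))⁻¹ *
            (n ^ (3 * (4 * M / 3)) * z * (n ^ (3 * (4 * M / 3)))⁻¹) := by rw [hns, hnz]; group
        _ = s * z := by rw [(h3 _).1, (h3 _).2]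
  · have e : y0 = n ^ (3 * (4 * M / 3)) * n := by rw [hy0, ← pow_succ]; congr 1; omega
    refine ⟨y0⁻¹, hy0b.inv_left.eq, ⟨k, by rw [inv_pow, hy0k, inv_one]⟩, ?_, ?_⟩
    · have e2 : y0 * s * y0⁻¹ = z := by
        calc y0 * s * y0⁻¹ = n ^ (3 * (4 * M / 3)) * (n * s * n⁻¹) * (n ^ (3 * (4 * M / 3)))⁻¹ := by
              rw [e]; group
          _ = z := by rw [hns, (h3 _).1]
      rw [← e2]; group
    · have e2 : y0 * (s * z) * y0⁻¹ = s := by
        calc y0 * (s * z) * y0⁻¹ = n ^ (3 * (4 * M / 3)) * (n * (s * z) * n⁻¹) *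
              (n ^ (3 * (4 * M / 3)))⁻¹ := by rw [e]; group
          _ = s := by rw [hnsz, (h3 _).2]
      conv_lhs => rw [← e2]
      group

end Cfsg.Agent.Co1Five
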