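import Cfsg.Agent.J2Type.Wrap
import Cfsg.Agent.J2Type.Gens
import Cfsg.Agent.Janko2.Group
import Cfsg.Agent.S1620
import Cfsg.Agent.S2040
import Cfsg.Agent.CentralExt.Basic
import Cfsg.Agent.Components.Basic
import Cfsg.Agent.Co1Five.Quot
import Cfsg.Agent.Co1Five.Swap

/-!
The centraliser of the element of order five modulo that element is of Hall–Janko type; its derived
group is the layer.
-/

set_option autoImplicit false

namespace Cfsg.Agent.Co1Five

open Cfsg Cfsg.Agent.ExtraTwo Cfsg.Agent.LargeExtra Cfsg.Agent.TTClass.OrthF2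
open Cfsg.Agent.Co1Type

/-- A subgroup containing the centraliser and a witness of fusion is everything. -/
theorem eq_top_of_centralizer_le {G : Type*} [Group G] [Finite G] {z : G} {Q : Subgroup G}
    (h : J2Type.Hyp z Q) {x : G} (hxz : x * z = z * x) (hox : orderOf x = 2) (hzx : ¬ IsConj z x)
    {H : Subgroup G} (hC : Subgroup.centralizer ({z} : Set G) ≤ H) {g : G} (hg : g ∈ H)
    (hgQ : g * z * g⁻¹ ∈ Q) (hne : g * z * g⁻¹ ≠ z) : H = ⊤ := by
  have hQH : Q ≤ H := fun a ha => hC (Subgroup.mem_centralizer_singleton_iff.2 (h.ci.comm a ha))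
  obtain ⟨p, d⟩ := J2Type.exists_data h
  obtain ⟨x', c⟩ := d.exists_cfg ⟨z, x, h.ci.order_two, hox, hzx⟩
  let zH : H := ⟨z, hQH h.ci.mem⟩
  have hQ' : IsExtraspecial 2 ↥(Q.subgroupOf H) :=
    isExtraspecial_map_equiv h.ci.extra (Subgroup.subgroupOfEquivOfLe hQH).symm
  obtain ⟨ζ, hci⟩ := exists_centralInvolution hQ'
  have hz : ζ = zH := ((hci.of_central zH h.ci.mem fun q hq =>
    Subtype.ext (h.ci.comm q hq)).resolve_left fun e => h.ci.ne_one (congrArg Subtype.val e)).symm
  subst hz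
  have hC' : Subgroup.centralizer ({zH} : Set H) =
      (Subgroup.centralizer ({z} : Set G)).subgroupOf H := by
    ext u
    rw [Subgroup.mem_subgroupOf, Subgroup.mem_centralizer_singleton_iff,
      Subgroup.mem_centralizer_singleton_iff, Subtype.ext_iff]
    rfl
  have h' : J2Type.Hyp zH (Q.subgroupOf H) := by
    refine ⟨hci, fun u hu => ?_, fun u hu => ?_, ?_, ?_, ⟨⟨g, hg⟩, hgQ, fun e => hne
      (congrArg Subtype.val e)⟩⟩
    · have : (u : G) ∈ Subgroup.zpowers z := h.cent fun q hq =>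
        congrArg Subtype.val (hu ⟨q, hQH hq⟩ hq)
      obtain ⟨k, hk⟩ := Subgroup.mem_zpowers_iff.1 this
      exact Subgroup.mem_zpowers_iff.2 ⟨k, Subtype.ext hk⟩
    · rw [hC', Subgroup.mem_subgroupOf] at hu
      exact Subgroup.mem_normalizer_iff.2 fun q =>
        Subgroup.mem_normalizer_iff.1 (h.norm hu) q
    · rw [Nat.card_congr (Subgroup.subgroupOfEquivOfLe hQH).toEquiv, h.cardQ]
    · rw [hC', Nat.card_congr (Subgroup.subgroupOfEquivOfLe hC).toEquiv, h.cardC]
  obtain ⟨p', d'⟩ := J2Type.exists_data h'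
  obtain ⟨x'', c'⟩ := d'.exists_cfg ⟨zH, ⟨x, hC (Subgroup.mem_centralizer_singleton_iff.2 hxz)⟩,
    h'.ci.order_two, by rw [← Subgroup.orderOf_coe]; exact hox, fun e => hzx (MonoidHom.map_isConj H.subtype e)⟩
  exact Subgroup.eq_top_of_card_eq H (c'.card_G.trans c.card_G.symm)

/-- The situation with an element permuting a four-group. -/
structure Conf {G : Type*} [Group G] [Finite G] (z : G) (Q : Subgroup G) (φ : G → V8) (b : G)
    (p r : Fin 5 → V8) (g s y : G) : Prop where
  five : Five z Q φ b p r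
  at_ : At z Q q8 b8 φ s8 f8 g s
  extra : IsExtraspecial 2 ↥(Q ⊓ Subgroup.centralizer ({b} : Set G))
  yb : y * b = b * y
  ypow : ∃ k : ℕ, y ^ (3 ^ k) = 1
  yz : y * z * y⁻¹ = s
  ys : y * s * y⁻¹ = s * z

variable {G : Type*} [Group G]

/-- The subgroup generated by `b` in its centraliser. -/
def Bk (b : G) : Subgroup ↥(Subgroup.centralizer ({b} : Set G)) :=
  (Subgroup.zpowers b).subgroupOf _

theorem Bk_le_center (b : G) : Bk b ≤ Subgroup.center _ := by
  intro u hu
  obtain ⟨k, hk⟩ := Subgroup.mem_zpowers_iff.1 (Subgroup.mem_subgroupOf.1 hu)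
  refine Subgroup.mem_center_iff.2 fun w => Subtype.ext ?_
  show (w : G) * u = u * w
  rw [← hk]
  exact (Commute.zpow_right (Subgroup.mem_centralizer_singleton_iff.1 w.2 : Commute (w : G) b) k).eq

instance Bk_normal (b : G) : (Bk b).Normal :=
  ⟨fun n hn w => by
    rw [Subgroup.mem_center_iff.1 (Bk_le_center b hn) w, mul_inv_cancel_right]; exact hn⟩

/-- The projection. -/
abbrev proj (b : G) : ↥(Subgroup.centralizer ({b} : Set G)) →*
    ↥(Subgroup.centralizer ({b} : Set G)) ⧸ Bk b := QuotientGroup.mk' (Bk b)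

variable [Finite G]

theorem exists_pow_of_proj_eq {b : G} {u v : Subgroup.centralizer ({b} : Set G)}
    (h : proj b u = proj b v) : ∃ n : ℕ, (v : G) = u * b ^ n := by
  have h' : u⁻¹ * v ∈ Bk b := QuotientGroup.eq.1 h
  obtain ⟨n, hn⟩ := mem_powers_iff_mem_zpowers.2 (Subgroup.mem_subgroupOf.1 h')
  exact ⟨n, by
    have hn' : b ^ n = (u : G)⁻¹ * v := hn
    rw [hn', mul_inv_cancel_left]⟩

theorem eq_of_proj_eq {b : G} (hb : orderOf b = 5) {u v : Subgroup.centralizer ({b} : Set G)}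
    (h : proj b u = proj b v) (hu : (u : G) ^ 4 = 1) (hv : (v : G) ^ 4 = 1) : u = v := by
  obtain ⟨n, hn⟩ := exists_pow_of_proj_eq h
  have e : b ^ (n * 4) = 1 := by
    have hc : Commute (u : G) (b ^ n) :=
      Commute.pow_right (Subgroup.mem_centralizer_singleton_iff.1 u.2 : Commute (u : G) b) n
    rwa [hn, hc.mul_pow, hu, one_mul, ← pow_mul] at hv
  have hd : 5 ∣ n := by
    have := orderOf_dvd_of_pow_eq_one e
    rw [hb] at this
    omega
  refine Subtype.ext ?_
  rw [hn, orderOf_dvd_iff_pow_eq_one.1 (hb ▸ hd), mul_one]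

namespace Conf

variable {z : G} {Q : Subgroup G} {φ : G → V8} {b : G} {p r : Fin 5 → V8} {g s y : G}
  (C : Conf z Q φ b p r g s y)
include C

theorem border : orderOf b = 5 := C.five.ctx.border

theorem fr : Frame z Q q8 b8 φ := C.five.ctx.fr

theorem bs : b * s = s * b :=
  (C.five.ctx.mem_fix_iff C.at_.mem).1 (by rw [C.at_.img, ← C.five.p0]; exact C.five.hp.mem 0)

theorem pow_four {a : G} (ha : a ∈ Q) : a ^ 4 = 1 := by
  have h2 : φ (a * a) = 0 := by rw [C.fr.map_mul a ha a ha, add_self']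
  rw [show a ^ 4 = (a * a) * (a * a) by rw [show (4 : ℕ) = 2 + 2 from rfl, pow_add, pow_two]]
  rcases C.fr.map_ker _ (mul_mem ha ha) h2 with e | e <;> simp [e, C.fr.ci.sq]

theorem z_pow_four : z ^ 4 = 1 := C.pow_four C.fr.ci.mem

theorem z_mem_K : z ∈ Subgroup.centralizer ({b} : Set G) :=
  Subgroup.mem_centralizer_singleton_iff.2 C.five.ctx.bz.symm

theorem y_mem_K : y ∈ Subgroup.centralizer ({b} : Set G) :=
  Subgroup.mem_centralizer_singleton_iff.2 C.yb

theorem s_mem_K : s ∈ Subgroup.centralizer ({b} : Set G) :=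
  Subgroup.mem_centralizer_singleton_iff.2 C.bs.symm

/-- The image of `z`. -/
noncomputable def zbar : ↥(Subgroup.centralizer ({b} : Set G)) ⧸ Bk b := proj b ⟨z, C.z_mem_K⟩

/-- The map of `C_Q(b)` into the quotient. -/
noncomputable def emb (_C : Conf z Q φ b p r g s y) : ↥(Q ⊓ Subgroup.centralizer ({b} : Set G)) →*
    ↥(Subgroup.centralizer ({b} : Set G)) ⧸ Bk b :=
  (proj b).comp (Subgroup.inclusion inf_le_right)

theorem emb_injective : Function.Injective C.emb := fun a a' e => by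
  have := eq_of_proj_eq C.border e (C.pow_four a.2.1) (C.pow_four a'.2.1)
  exact Subtype.ext (congrArg (fun w : Subgroup.centralizer ({b} : Set G) => (w : G)) this)

theorem hyp : J2Type.Hyp C.zbar C.emb.range := by
  have hQ' : IsExtraspecial 2 ↥C.emb.range :=
    isExtraspecial_map_equiv C.extra (MonoidHom.ofInjective C.emb_injective)
  have hzK : z ∈ Q ⊓ Subgroup.centralizer ({b} : Set G) := ⟨C.fr.ci.mem, C.z_mem_K⟩
  obtain ⟨ζ, hci⟩ := exists_centralInvolution hQ'
  have hz : ζ = C.zbar := by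
    refine ((hci.of_central C.zbar ⟨⟨z, hzK⟩, rfl⟩ ?_).resolve_left fun e => ?_).symm
    · rintro _ ⟨a, rfl⟩
      show C.emb a * C.emb ⟨z, hzK⟩ = C.emb ⟨z, hzK⟩ * C.emb a
      rw [← map_mul, ← map_mul]
      congr 1
      exact Subtype.ext (C.fr.ci.comm a a.2.1)
    · have := eq_of_proj_eq C.border (e.trans (map_one (proj b)).symm) C.z_pow_four (one_pow 4)
      exact C.fr.ci.ne_one (congrArg Subtype.val this)
  subst hz
  -- an element centralising the image centralises the subgroup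
  have hlift : ∀ c : Subgroup.centralizer ({b} : Set G),
      ∀ a : ↥(Q ⊓ Subgroup.centralizer ({b} : Set G)),
      proj b c * C.emb a = C.emb a * proj b c → (c : G) * a = a * c := by
    intro c a e
    have h4 : ((c * Subgroup.inclusion inf_le_right a * c⁻¹ :
        Subgroup.centralizer ({b} : Set G)) : G) ^ 4 = 1 := by
      show ((c : G) * a * (c : G)⁻¹) ^ 4 = 1
      rw [conj_pow, C.pow_four a.2.1]
      group
    have := eq_of_proj_eq C.border (u := c * Subgroup.inclusion inf_le_right a * c⁻¹)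
      (v := Subgroup.inclusion inf_le_right a) (by
        rw [map_mul, map_mul, map_inv]
        exact mul_inv_eq_iff_eq_mul.2 e) h4 (C.pow_four a.2.1)
    exact mul_inv_eq_iff_eq_mul.1 (congrArg Subtype.val this)
  have hcentr : ∀ c : Subgroup.centralizer ({b} : Set G),
      proj b c ∈ Subgroup.centralizer ({C.zbar} : Set (↥(Subgroup.centralizer ({b} : Set G)) ⧸ Bk b)) →
      (c : G) * z = z * c := fun c hc =>
    hlift c ⟨z, hzK⟩ (Subgroup.mem_centralizer_singleton_iff.1 hc)
  refine ⟨hci, fun x hx => ?_, fun x hx => ?_, ?_, ?_, ?_⟩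
  · obtain ⟨c, rfl⟩ := QuotientGroup.mk'_surjective (Bk b) x
    have hcom : ∀ a : ↥(Q ⊓ Subgroup.centralizer ({b} : Set G)), (c : G) * a = a * c := fun a =>
      hlift c a (hx _ ⟨a, rfl⟩).symm
    have hcz : (c : G) * z = z * c := hcom ⟨z, hzK⟩
    have hcb : (c : G) * b = b * c := Subgroup.mem_centralizer_singleton_iff.1 c.2
    have h0 : C.five.perm0 c = 1 := C.five.perm0_eq (C.five.comm_of_commute hcz hcb) fun i => by
      obtain ⟨a, ha, e⟩ := C.fr.map_surj (p i)
      have hab : a ∈ Subgroup.centralizer ({b} : Set G) := Subgroup.mem_centralizer_singleton_iff.2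
        ((C.five.ctx.mem_fix_iff ha).1 (e ▸ C.five.hp.mem i)).symm
      rw [← e, C.five.ctx.fr.act_map hcz ha, hcom ⟨a, ha, hab⟩, mul_inv_cancel_right, e]
      rfl
    obtain ⟨a, ha, n, hcn⟩ := (C.five.mem_ker_perm0 (C.five.mem_cbz.2 ⟨hcb, hcz⟩)).1 h0
    have hce : proj b c = C.emb ⟨a, ha⟩ := QuotientGroup.eq.2 (Subgroup.mem_subgroupOf.2 (by
      show (c : G)⁻¹ * a ∈ Subgroup.zpowers b
      rw [hcn, mul_inv_rev, inv_mul_cancel_right]
      exact inv_mem (pow_mem (Subgroup.mem_zpowers b) n)))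
    rw [hce] at hx ⊢
    refine hci.mem_zpowers_iff.2 (hci.of_central _ ⟨_, rfl⟩ fun q hq => hx q hq)
  · have key : ∀ x ∈ Subgroup.centralizer
        ({C.zbar} : Set (↥(Subgroup.centralizer ({b} : Set G)) ⧸ Bk b)),
        ∀ q ∈ C.emb.range, x * q * x⁻¹ ∈ C.emb.range := by
      intro x hx q hq
      obtain ⟨c, rfl⟩ := QuotientGroup.mk'_surjective (Bk b) x
      obtain ⟨a, rfl⟩ := hq
      refine ⟨⟨c * a * (c : G)⁻¹, C.fr.conj_memQ (hcentr c hx) a.2.1,
        (Subgroup.centralizer ({b} : Set G)).mul_mem ((Subgroup.centralizer ({b} : Set G)).mul_mem c.2 a.2.2)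
          ((Subgroup.centralizer ({b} : Set G)).inv_mem c.2)⟩, ?_⟩
      show proj b _ = proj b c * proj b _ * (proj b c)⁻¹
      rw [← map_inv, ← map_mul, ← map_mul]
      rfl
    refine Subgroup.mem_normalizer_iff.2 fun q => ⟨key x hx q, fun hq => ?_⟩
    have := key x⁻¹ (inv_mem hx) _ hq
    rwa [show x⁻¹ * (x * q * x⁻¹) * x⁻¹⁻¹ = q by group] at this
  · rw [Nat.card_congr (MonoidHom.ofInjective C.emb_injective).symm.toEquiv, C.five.ctx.cardQb]
  · set D : Subgroup (Subgroup.centralizer ({b} : Set G)) :=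
      (Subgroup.centralizer ({z} : Set G)).subgroupOf _ with hD
    have hmap : Subgroup.centralizer
        ({C.zbar} : Set (↥(Subgroup.centralizer ({b} : Set G)) ⧸ Bk b)) = D.map (proj b) := by
      ext x
      constructor
      · intro hx
        obtain ⟨c, rfl⟩ := QuotientGroup.mk'_surjective (Bk b) x
        exact ⟨c, Subgroup.mem_centralizer_singleton_iff.2 (hcentr c hx), rfl⟩
      · rintro ⟨c, hc, rfl⟩
        refine Subgroup.mem_centralizer_singleton_iff.2 ?_
        show proj b c * proj b _ = proj b _ * proj b c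
        rw [← map_mul, ← map_mul]
        congr 1
        exact Subtype.ext (Subgroup.mem_centralizer_singleton_iff.1 hc)
    have hBD : Bk b ≤ D := fun u hu => Subgroup.mem_centralizer_singleton_iff.2
      (congrArg Subtype.val (Subgroup.mem_center_iff.1 (Bk_le_center b hu) ⟨z, C.z_mem_K⟩)).symm
    have hcardD : Nat.card D = 9600 := by
      rw [hD, ← Subgroup.inf_subgroupOf_left,
        Nat.card_congr (Subgroup.subgroupOfEquivOfLe inf_le_left).toEquiv, C.five.card_cbz]
    have hcardB : Nat.card ((proj b).domRestrict D).ker = 5 := by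
      rw [MonoidHom.ker_domRestrict, QuotientGroup.ker_mk',
        Nat.card_congr (Subgroup.subgroupOfEquivOfLe hBD).toEquiv, Bk,
        Nat.card_congr (Subgroup.subgroupOfEquivOfLe (Subgroup.zpowers_le.2
          (Subgroup.mem_centralizer_singleton_iff.2 rfl))).toEquiv, Nat.card_zpowers, C.border]
    have := Subgroup.card_eq_card_quotient_mul_card_subgroup ((proj b).domRestrict D).ker
    rw [Nat.card_congr (QuotientGroup.quotientKerEquivRange _).toEquiv, MonoidHom.domRestrict_range,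
      ← hmap, hcardD, hcardB] at this
    omega
  · refine ⟨proj b ⟨y, C.y_mem_K⟩, ⟨⟨s, C.at_.mem, C.s_mem_K⟩, ?_⟩, fun e => ?_⟩
    · show proj b _ = proj b _ * proj b _ * (proj b _)⁻¹
      rw [← map_inv, ← map_mul, ← map_mul]
      exact congrArg _ (Subtype.ext C.yz.symm)
    · have h4 : (y * z * y⁻¹) ^ 4 = 1 := by rw [C.yz]; exact C.pow_four C.at_.mem
      have e' : proj b (⟨y, C.y_mem_K⟩ * ⟨z, C.z_mem_K⟩ * ⟨y, C.y_mem_K⟩⁻¹) =
          proj b ⟨z, C.z_mem_K⟩ := by rw [map_mul, map_mul, map_inv]; exact e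
      exact C.at_.ne_z (C.yz.symm.trans
        (congrArg Subtype.val (eq_of_proj_eq C.border e' h4 C.z_pow_four)))

theorem exists_outer_bar : ∃ x, x * C.zbar = C.zbar * x ∧ orderOf x = 2 ∧ ¬ IsConj C.zbar x := by
  obtain ⟨x, hxb, hxz, hox, hzx⟩ := C.five.exists_outer
    ⟨y, by rw [C.yz]; exact C.at_.mem, by rw [C.yz]; exact C.at_.ne_z⟩
  have hx4 : x ^ 4 = 1 := orderOf_dvd_iff_pow_eq_one.1 (by rw [hox]; norm_num)
  let xK : Subgroup.centralizer ({b} : Set G) := ⟨x, Subgroup.mem_centralizer_singleton_iff.2 hxb⟩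
  refine ⟨proj b xK, ?_, ?_, fun e => hzx ?_⟩
  · show proj b xK * proj b _ = proj b _ * proj b xK
    rw [← map_mul, ← map_mul]
    exact congrArg _ (Subtype.ext hxz)
  · refine orderOf_eq_prime ?_ fun e => ?_
    · rw [← map_pow, show xK ^ 2 = 1 from Subtype.ext (by
        show x ^ 2 = 1
        rw [← hox, pow_orderOf_eq_one]), map_one]
    · have e' := congrArg Subtype.val
        (eq_of_proj_eq C.border (u := xK) (e.trans (map_one (proj b)).symm) hx4 (one_pow 4))
      rw [show x = 1 from e', orderOf_one] at hox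
      norm_num at hox
  · obtain ⟨u, hu⟩ := isConj_iff.1 e
    obtain ⟨c, rfl⟩ := QuotientGroup.mk'_surjective (Bk b) u
    have e' : proj b (c * ⟨z, C.z_mem_K⟩ * c⁻¹) = proj b xK := by
      rw [map_mul, map_mul, map_inv]; exact hu
    have h4 : ((c : G) * z * (c : G)⁻¹) ^ 4 = 1 := by rw [conj_pow, C.z_pow_four]; group
    exact isConj_iff.2 ⟨c, congrArg Subtype.val (eq_of_proj_eq C.border e' h4 hx4)⟩

theorem nonempty_quot :
    Nonempty (↥(Subgroup.centralizer ({b} : Set G)) ⧸ Bk b ≃* Cfsg.Spor.J2) := by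
  obtain ⟨p', d⟩ := J2Type.exists_data C.hyp
  obtain ⟨x, hx, hox, hzx⟩ := C.exists_outer_bar
  obtain ⟨x', c⟩ := d.exists_cfg ⟨_, x, C.hyp.ci.order_two, hox, hzx⟩
  obtain ⟨i⟩ := c.nonempty_iso_model
  exact ⟨i.trans Cfsg.Agent.Janko2.j2Equiv.symm⟩

/-- A subgroup covering the centraliser of `z` and containing `y` covers everything. -/
theorem covers {H : Subgroup G} (hy : y ∈ H)
    (hz : ∀ c, c * b = b * c → c * z = z * c → ∃ a ∈ H, ∃ n : ℕ, c = a * b ^ n) :
    ∀ c, c * b = b * c → ∃ a ∈ H, ∃ n : ℕ, c = a * b ^ n := by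
  have htop : (H.subgroupOf (Subgroup.centralizer ({b} : Set G))).map (proj b) = ⊤ := by
    obtain ⟨x, hx, hox, hzx⟩ := C.exists_outer_bar
    refine eq_top_of_centralizer_le C.hyp hx hox hzx (fun u hu => ?_)
      ⟨⟨y, C.y_mem_K⟩, hy, rfl⟩ ?_ ?_
    · obtain ⟨c, rfl⟩ := QuotientGroup.mk'_surjective (Bk b) u
      have hcz : (c : G) * z = z * c := by
        have h4 : ((c : G) * z * (c : G)⁻¹) ^ 4 = 1 := by rw [conj_pow, C.z_pow_four]; group
        have e := Subgroup.mem_centralizer_singleton_iff.1 hu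
        have e' : proj b (c * ⟨z, C.z_mem_K⟩ * c⁻¹) = proj b ⟨z, C.z_mem_K⟩ := by
          rw [map_mul, map_mul, map_inv]
          exact mul_inv_eq_iff_eq_mul.2 e
        exact mul_inv_eq_iff_eq_mul.1
          (congrArg Subtype.val (eq_of_proj_eq C.border e' h4 C.z_pow_four))
      have hcb : (c : G) * b = b * c := Subgroup.mem_centralizer_singleton_iff.1 c.2
      obtain ⟨a, ha, n, hn⟩ := hz c hcb hcz
      have hab : a ∈ Subgroup.centralizer ({b} : Set G) := by
        have : a = (c : G) * (b ^ n)⁻¹ := by rw [hn, mul_inv_cancel_right]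
        rw [this]
        exact mul_mem c.2 (inv_mem (pow_mem (Subgroup.mem_centralizer_singleton_iff.2 rfl) n))
      refine ⟨⟨a, hab⟩, ha, QuotientGroup.eq.2 (Subgroup.mem_subgroupOf.2 ?_)⟩
      show a⁻¹ * (c : G) ∈ Subgroup.zpowers b
      rw [hn, inv_mul_cancel_left]
      exact pow_mem (Subgroup.mem_zpowers b) n
    · exact ⟨⟨s, C.at_.mem, C.s_mem_K⟩, by
        show proj b _ = proj b _ * proj b _ * (proj b _)⁻¹
        rw [← map_inv, ← map_mul, ← map_mul]
        exact congrArg _ (Subtype.ext C.yz.symm)⟩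
    · intro e
      have h4 : (y * z * y⁻¹) ^ 4 = 1 := by rw [C.yz]; exact C.pow_four C.at_.mem
      have e' : proj b (⟨y, C.y_mem_K⟩ * ⟨z, C.z_mem_K⟩ * ⟨y, C.y_mem_K⟩⁻¹) =
          proj b ⟨z, C.z_mem_K⟩ := by rw [map_mul, map_mul, map_inv]; exact e
      exact C.at_.ne_z (C.yz.symm.trans
        (congrArg Subtype.val (eq_of_proj_eq C.border e' h4 C.z_pow_four)))
  intro c hc
  have hcm : proj b ⟨c, Subgroup.mem_centralizer_singleton_iff.2 hc⟩ ∈
      (H.subgroupOf (Subgroup.centralizer ({b} : Set G))).map (proj b) := by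
    rw [htop]; exact Subgroup.mem_top _
  obtain ⟨a, ha, he⟩ := hcm
  obtain ⟨n, hn⟩ := exists_pow_of_proj_eq he
  exact ⟨a, ha, n, hn⟩

end Conf

end Cfsg.Agent.Co1Five
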