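import Cfsg.Agent.Co1Five.J2

/-!
The layer of the centraliser of the element of order five and its part centralising `z`.
-/

set_option autoImplicit false

namespace Cfsg.Agent.Co1Five

open Cfsg Cfsg.Agent.ExtraTwo Cfsg.Agent.LargeExtra Cfsg.Agent.TTClass.OrthF2
open Cfsg.Agent.Co1Type
open scoped commutatorElement

theorem commutatorElement_mul_central {X : Type*} [Group X] (a a' c c' : X)
    (hc : c ∈ Subgroup.center X) (hc' : c' ∈ Subgroup.center X) :
    ⁅a * c, a' * c'⁆ = ⁅a, a'⁆ := by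
  have h1 := Subgroup.mem_center_iff.1 hc
  have h2 := Subgroup.mem_center_iff.1 hc'
  have e1 : a * c * (a' * c') = a * a' * (c * c') := by
    rw [mul_assoc a, ← mul_assoc c, ← h1 a']; simp only [mul_assoc]
  have e2 : a' * c' * (a * c) = a' * a * (c * c') := by
    rw [mul_assoc a', ← mul_assoc c', ← h2 a, mul_assoc a c' c, ← h2 c, ← mul_assoc a' a]
  calc ⁅a * c, a' * c'⁆ = a * c * (a' * c') * (a' * c' * (a * c))⁻¹ := by
        rw [commutatorElement_def]; group
    _ = ⁅a, a'⁆ := by rw [e1, e2, commutatorElement_def]; group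

variable {G : Type*} [Group G]

/-- The derived group of the centraliser of `b`. -/
def LL (b : G) : Subgroup G :=
  ⁅Subgroup.centralizer ({b} : Set G), Subgroup.centralizer ({b} : Set G)⁆

theorem LL_eq (b : G) :
    (commutator ↥(Subgroup.centralizer ({b} : Set G))).map
      (Subgroup.centralizer ({b} : Set G)).subtype = LL b :=
  Subgroup.map_subtype_commutator _

theorem LL_le (b : G) : LL b ≤ Subgroup.centralizer ({b} : Set G) := by
  rw [← LL_eq]
  exact Subgroup.map_subtype_le _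

variable [Finite G]

namespace Conf

variable {z : G} {Q : Subgroup G} {φ : G → V8} {b : G} {p r : Fin 5 → V8} {g s y : G}
  (C : Conf z Q φ b p r g s y)
include C

theorem quot_simple : IsSimpleGroup (↥(Subgroup.centralizer ({b} : Set G)) ⧸ Bk b) ∧
    ∃ u v : ↥(Subgroup.centralizer ({b} : Set G)) ⧸ Bk b, u * v ≠ v * u := by
  obtain ⟨e⟩ := C.nonempty_quot
  obtain ⟨hs, u, v, huv⟩ := S1620.result
  haveI := hs
  refine ⟨e.symm.isSimpleGroup_congr.1 hs, e.symm u, e.symm v, fun h => huv ?_⟩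
  rw [← map_mul, ← map_mul] at h
  exact e.symm.injective h

theorem commutator_map :
    (commutator ↥(Subgroup.centralizer ({b} : Set G))).map (proj b) = ⊤ := by
  obtain ⟨hs, u, v, huv⟩ := C.quot_simple
  haveI := hs
  rw [commutator_def, Subgroup.map_commutator,
    Subgroup.map_top_of_surjective _ (QuotientGroup.mk'_surjective _)]
  have hn : (⁅(⊤ : Subgroup (↥(Subgroup.centralizer ({b} : Set G)) ⧸ Bk b)),
      (⊤ : Subgroup (↥(Subgroup.centralizer ({b} : Set G)) ⧸ Bk b))⁆ : Subgroup _).Normal :=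
    Subgroup.commutator_normal ⊤ ⊤
  rcases hn.eq_bot_or_eq_top with h | h
  · exfalso
    have hm := Subgroup.commutator_mem_commutator (Subgroup.mem_top u) (Subgroup.mem_top v)
    rw [h, Subgroup.mem_bot] at hm
    exact huv (commutatorElement_eq_one_iff_mul_comm.1 hm)
  · exact h

theorem exists_mem_commutator (c : ↥(Subgroup.centralizer ({b} : Set G))) :
    ∃ l ∈ commutator ↥(Subgroup.centralizer ({b} : Set G)), ∃ β ∈ Bk b, c = l * β := by
  have : proj b c ∈ (commutator ↥(Subgroup.centralizer ({b} : Set G))).map (proj b) := by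
    rw [C.commutator_map]; exact Subgroup.mem_top _
  obtain ⟨l, hl, he⟩ := this
  exact ⟨l, hl, l⁻¹ * c, QuotientGroup.eq.1 he, (mul_inv_cancel_left l c).symm⟩

theorem commutator_perfect :
    ⁅commutator ↥(Subgroup.centralizer ({b} : Set G)),
      commutator ↥(Subgroup.centralizer ({b} : Set G))⁆ =
      commutator ↥(Subgroup.centralizer ({b} : Set G)) := by
  refine le_antisymm (Subgroup.commutator_le_self _) ?_
  conv_lhs => rw [commutator_def]
  refine Subgroup.commutator_le.2 fun u _ v _ => ?_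
  obtain ⟨l, hl, β, hβ, rfl⟩ := C.exists_mem_commutator u
  obtain ⟨l', hl', β', hβ', rfl⟩ := C.exists_mem_commutator v
  rw [commutatorElement_mul_central _ _ _ _ (Bk_le_center b hβ) (Bk_le_center b hβ')]
  exact Subgroup.commutator_mem_commutator hl hl'

theorem restrict_bijective :
    Function.Bijective ((proj b).domRestrict (commutator ↥(Subgroup.centralizer ({b} : Set G)))) := by
  set K := ↥(Subgroup.centralizer ({b} : Set G))
  set τ := (proj b).domRestrict (commutator K) with hτ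
  have hsurj : Function.Surjective τ := fun x => by
    have : x ∈ (commutator K).map (proj b) := by rw [C.commutator_map]; exact Subgroup.mem_top _
    obtain ⟨l, hl, rfl⟩ := this
    exact ⟨⟨l, hl⟩, rfl⟩
  have hker : τ.ker = (Bk b).subgroupOf (commutator K) := by
    rw [hτ, MonoidHom.ker_domRestrict, QuotientGroup.ker_mk']
  refine ⟨?_, hsurj⟩
  obtain ⟨e⟩ := C.nonempty_quot
  have hperf : Group.IsPerfect ↥(commutator K) := Subgroup.isPerfect_iff.2 C.commutator_perfect
  have hstem : IsStemExtension (e.toMonoidHom.comp τ) := by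
    have hk : (e.toMonoidHom.comp τ).ker = τ.ker := by
      ext u
      simp [MonoidHom.mem_ker]
    refine ⟨e.surjective.comp hsurj, ?_, ?_⟩
    · rw [hk, hker]
      exact fun u hu => Subgroup.mem_center_iff.2 fun w => Subtype.ext
        (Subgroup.mem_center_iff.1 (Bk_le_center b (Subgroup.mem_subgroupOf.1 hu)) w)
    · rw [hperf.commutator_eq_top]
      exact le_top
  have h2 := CentralExt.card_ker_dvd_of_hasSchurMultiplier S2040.result hstem
  have hk : (e.toMonoidHom.comp τ).ker = τ.ker := by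
    ext u
    simp [MonoidHom.mem_ker]
  rw [hk, hker, Nat.card_eq_fintype_card (α := Multiplicative (ZMod 2))] at h2
  have h5 : Nat.card ((Bk b).subgroupOf (commutator K)) ∣ 5 := by
    have e5 : Nat.card (Bk b) = 5 := by
      rw [Bk, Nat.card_congr (Subgroup.subgroupOfEquivOfLe (Subgroup.zpowers_le.2
        (Subgroup.mem_centralizer_singleton_iff.2 rfl))).toEquiv, Nat.card_zpowers, C.border]
    rw [← e5, ← Subgroup.card_map_of_injective (commutator K).subtype_injective]
    refine Subgroup.card_dvd_of_le ?_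
    rintro _ ⟨u, hu, rfl⟩
    exact hu
  have h1 : Nat.card ((Bk b).subgroupOf (commutator K)) = 1 := by
    have := Nat.dvd_gcd h2 h5
    simpa using this
  rw [← MonoidHom.ker_eq_bot_iff, hker]
  exact Subgroup.eq_bot_of_card_eq _ h1

theorem pow_eq_one_of_mem {n : ℕ} (h : b ^ n ∈ LL b) : b ^ n = 1 := by
  rw [← LL_eq] at h
  obtain ⟨u, hu, he⟩ := h
  have hB : u ∈ Bk b := Subgroup.mem_subgroupOf.2 (by
    show (u : G) ∈ Subgroup.zpowers b
    rw [show (u : G) = b ^ n from he]
    exact pow_mem (Subgroup.mem_zpowers b) n)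
  have h1 : (⟨u, hu⟩ : commutator ↥(Subgroup.centralizer ({b} : Set G))) = 1 :=
    C.restrict_bijective.1 (by
      rw [map_one]
      exact (QuotientGroup.eq_one_iff u).2 hB)
  rw [← he, show u = 1 from congrArg Subtype.val h1]
  rfl

theorem exists_mem_LL {c : G} (hc : c * b = b * c) :
    ∃ l ∈ LL b, ∃ n : ℕ, c = l * b ^ n := by
  obtain ⟨l, hl, β, hβ, e⟩ :=
    C.exists_mem_commutator ⟨c, Subgroup.mem_centralizer_singleton_iff.2 hc⟩
  obtain ⟨n, hn⟩ := mem_powers_iff_mem_zpowers.2 (Subgroup.mem_subgroupOf.1 hβ)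
  refine ⟨l, ?_, n, ?_⟩
  · rw [← LL_eq]; exact ⟨l, hl, rfl⟩
  · have hn' : b ^ n = (β : G) := hn
    rw [hn']
    exact congrArg Subtype.val e

theorem isoJ2 : Spor.IsoJ2 ↥(commutator ↥(Subgroup.centralizer ({b} : Set G))) := by
  obtain ⟨e⟩ := C.nonempty_quot
  exact ⟨(MulEquiv.ofBijective _ C.restrict_bijective).trans e⟩

theorem layer_eq : layer ↥(Subgroup.centralizer ({b} : Set G)) =
    commutator ↥(Subgroup.centralizer ({b} : Set G)) := by
  refine le_antisymm (Components.layer_le_iff.2 fun X hX => ?_) (Components.component_le_layer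
    ⟨Subgroup.Normal.isSubnormal inferInstance, ?_⟩)
  · rw [← Components.component_commutator_self hX, commutator_def]
    exact Subgroup.commutator_mono le_top le_top
  · obtain ⟨i⟩ := C.isoJ2
    haveI := i.isSimpleGroup_congr.2 S1620.result.1
    haveI : Group.IsPerfect ↥(commutator ↥(Subgroup.centralizer ({b} : Set G))) :=
      Subgroup.isPerfect_iff.2 C.commutator_perfect
    exact Components.quasisimple_of_forall_normal fun N hN =>
      hN.eq_bot_or_eq_top.symm.imp id fun h => by rw [h]; exact bot_le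

theorem mem_of_pow {c : G} (hc : c * b = b * c) {m : ℕ} (hm : c ^ m = 1) (h5 : Nat.Coprime m 5) :
    c ∈ LL b := by
  obtain ⟨l, hl, n, e⟩ := C.exists_mem_LL hc
  have hlb : Commute l b := Subgroup.mem_centralizer_singleton_iff.1 (LL_le b hl)
  have e5 : c ^ 5 = l ^ 5 := by
    rw [e, (hlb.pow_right n).mul_pow, ← pow_mul, mul_comm n 5, pow_mul, C.five.ctx.pow_five,
      one_pow, mul_one]
  obtain ⟨k, hk⟩ := exists_pow_eq_self_of_coprime (x := c) (n := 5)
    (Nat.Coprime.coprime_dvd_right (orderOf_dvd_of_pow_eq_one hm) h5.symm)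
  rw [← hk, e5]
  exact pow_mem (pow_mem hl 5) k

theorem Qb_le : Q ⊓ Subgroup.centralizer ({b} : Set G) ≤
    LL b ⊓ Subgroup.centralizer ({z} : Set G) := fun a ha =>
  ⟨C.mem_of_pow (Subgroup.mem_centralizer_singleton_iff.1 ha.2) (C.pow_four ha.1) (by norm_num),
    Subgroup.mem_centralizer_singleton_iff.2 (C.fr.ci.comm a ha.1)⟩

theorem exists_mem_L0 {c : G} (hc : c * b = b * c) (hz : c * z = z * c) :
    ∃ l ∈ LL b ⊓ Subgroup.centralizer ({z} : Set G), ∃ n : ℕ, c = l * b ^ n := by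
  obtain ⟨l, hl, n, e⟩ := C.exists_mem_LL hc
  refine ⟨l, ⟨hl, Subgroup.mem_centralizer_singleton_iff.2 ?_⟩, n, e⟩
  rw [show l = c * (b ^ n)⁻¹ by rw [e, mul_inv_cancel_right]]
  exact C.fr.mul_comm_z hz (Commute.inv_left (C.five.ctx.powz n : Commute (b ^ n) z)).eq

/-- A subgroup containing `C_Q(b)` and suitable powers contains the part centralising `z`. -/
theorem L0_induction {H : Subgroup G} (hQ : Q ⊓ Subgroup.centralizer ({b} : Set G) ≤ H) {m : ℕ}
    (h3 : Nat.Coprime m 3)
    (hpow : ∀ l ∈ LL b ⊓ Subgroup.centralizer ({z} : Set G), l ^ m ∈ H) :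
    LL b ⊓ Subgroup.centralizer ({z} : Set G) ≤ H := by
  have hmem : ∀ {l}, l ∈ LL b ⊓ Subgroup.centralizer ({z} : Set G) →
      l ∈ Subgroup.centralizer ({b} : Set G) ⊓ Subgroup.centralizer ({z} : Set G) := fun {l} hl =>
    ⟨LL_le b hl.1, hl.2⟩
  set M := ((H ⊓ (LL b ⊓ Subgroup.centralizer ({z} : Set G))).subgroupOf
    (Subgroup.centralizer ({b} : Set G) ⊓ Subgroup.centralizer ({z} : Set G))).map
      C.five.perm0Hom with hM
  have hA5 : alternatingGroup (Fin 5) ≤ M := by
    rw [← Equiv.Perm.closure_three_cycles_eq_alternating, Subgroup.closure_le]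
    intro π hπ
    have hπA : π ∈ C.five.perm0Hom.range := by
      rw [C.five.range_perm0]; exact hπ.mem_alternatingGroup
    obtain ⟨⟨c, hc⟩, rfl⟩ := hπA
    obtain ⟨hcb, hcz⟩ := C.five.mem_cbz.1 hc
    obtain ⟨l, hl, n, e⟩ := C.exists_mem_L0 hcb hcz
    set L : ↥(Subgroup.centralizer ({b} : Set G) ⊓ Subgroup.centralizer ({z} : Set G)) :=
      ⟨l, hmem hl⟩ with hL
    have hperm : C.five.perm0Hom ⟨c, hc⟩ = C.five.perm0Hom L := by
      show C.five.perm0 c = C.five.perm0 l
      rw [e, C.five.perm0_mul (C.five.comm_of_mem (hmem hl)) (C.five.comm_bpow n),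
        C.five.perm0_bpow, mul_one]
    rw [hperm] at hπ ⊢
    obtain ⟨k, hk⟩ := exists_pow_eq_self_of_coprime (x := C.five.perm0Hom L) (n := m)
      (by rw [hπ.orderOf]; exact h3)
    rw [← hk, ← map_pow, ← map_pow]
    refine ⟨(L ^ m) ^ k, ?_, rfl⟩
    exact ⟨pow_mem (hpow l hl) k, pow_mem (pow_mem hl m) k⟩
  intro l hl
  have hlr : C.five.perm0Hom ⟨l, hmem hl⟩ ∈ M := by
    refine hA5 ?_
    rw [← C.five.range_perm0]
    exact ⟨_, rfl⟩
  obtain ⟨⟨u, hu⟩, ⟨huH, huL⟩, he⟩ := hlr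
  have hw : u⁻¹ * l ∈ LL b ⊓ Subgroup.centralizer ({z} : Set G) := mul_mem (inv_mem huL) hl
  have h0 : C.five.perm0Hom ⟨u⁻¹ * l, hmem hw⟩ = 1 := by
    rw [show (⟨u⁻¹ * l, hmem hw⟩ : ↥(Subgroup.centralizer ({b} : Set G) ⊓
      Subgroup.centralizer ({z} : Set G))) = ⟨u, hu⟩⁻¹ * ⟨l, hmem hl⟩ from rfl, map_mul, map_inv,
      he, inv_mul_cancel]
  obtain ⟨a, ha, n, hn⟩ := (C.five.mem_ker_perm0 (hmem hw)).1 h0
  have hb1 : b ^ n = 1 := by
    refine C.pow_eq_one_of_mem ?_
    have : a⁻¹ * (u⁻¹ * l) ∈ LL b := mul_mem (inv_mem (C.Qb_le ha).1) hw.1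
    rwa [hn, inv_mul_cancel_left] at this
  rw [hb1, mul_one] at hn
  rw [show l = u * a by rw [← hn, mul_inv_cancel_left]]
  exact mul_mem huH (hQ ha)

theorem perm1_L0 {l : G} (hl : l ∈ LL b ⊓ Subgroup.centralizer ({z} : Set G)) :
    C.five.perm1 l = 1 := by
  have hcm : ∀ {w}, w ∈ LL b ⊓ Subgroup.centralizer ({z} : Set G) → C.five.Comm w := fun {w} hw =>
    C.five.comm_of_mem ⟨LL_le b hw.1, hw.2⟩
  let f : ↥(LL b ⊓ Subgroup.centralizer ({z} : Set G)) →* Equiv.Perm (Fin 5) :=
    { toFun := fun w => C.five.perm1 w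
      map_one' := C.five.perm1_one
      map_mul' := fun v w => C.five.perm1_mul (hcm v.2) (hcm w.2) }
  have h := C.L0_induction (H := f.ker.map (LL b ⊓ Subgroup.centralizer ({z} : Set G)).subtype)
    (m := 5) (fun a ha => ⟨⟨a, C.Qb_le ha⟩, MonoidHom.mem_ker.2 (C.five.perm1_eq
      (hcm (C.Qb_le ha)) fun k => by rw [C.five.ctx.fr.act_of_mem ha.1]; rfl), rfl⟩)
    (by norm_num) (fun w hw => ⟨⟨w, hw⟩ ^ 5, MonoidHom.mem_ker.2 ?_, rfl⟩)
  · obtain ⟨⟨w, hw⟩, hk, rfl⟩ := h hl
    exact MonoidHom.mem_ker.1 hk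
  · rw [map_pow]
    show C.five.perm1 w ^ 5 = 1
    rw [C.five.perm1_pow (Subgroup.mem_centralizer_singleton_iff.1 (LL_le b hw.1))
      (Subgroup.mem_centralizer_singleton_iff.1 hw.2), ← pow_mul, mul_comm, pow_mul, cyc5_pow_five,
      one_pow]

theorem act_mov_L0 {l : G} (hl : l ∈ LL b ⊓ Subgroup.centralizer ({z} : Set G)) {v : V8}
    (hv : v ∈ C.five.ctx.mov) : C.five.ctx.fr.act l v = v :=
  C.five.eq_on_mov (C.five.comm_of_mem ⟨LL_le b hl.1, hl.2⟩) (C.perm1_L0 hl) hv

end Conf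

end Cfsg.Agent.Co1Five
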