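import Cfsg.Agent.Co1Five.Layer

/-!
Elements centralising `z` and the part of `Q` centralising the element of order five.
-/

set_option autoImplicit false

namespace Cfsg.Agent.Co1Five

open Cfsg Cfsg.Agent.ExtraTwo Cfsg.Agent.LargeExtra Cfsg.Agent.TTClass.OrthF2
open Cfsg.Agent.Co1Type

variable {G : Type*} [Group G] [Finite G]

theorem Ctx.mem_mov_of_perp {z : G} {Q : Subgroup G} {φ : G → V8} {b : G} (X : Ctx z Q φ b) {x : V8}
    (h : ∀ u ∈ X.fix, b8 x u = 0) : x ∈ X.mov := by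
  refine X.mem_mov.2 (X.nd_fix _ (X.avg_mem x) fun u hu => ?_)
  have e := h u hu
  rw [show x = X.avg x + (x + X.avg x) from (X.splitEquiv.symm_apply_apply x).symm,
    LinearMap.map_add₂] at e
  rwa [show b8 (x + X.avg x) u = 0 by rw [X.fr.qf.symm]; exact X.perp hu (X.split x).2,
    add_zero] at e

namespace Conf

variable {z : G} {Q : Subgroup G} {φ : G → V8} {b : G} {p r : Fin 5 → V8} {g s y : G}
  (C : Conf z Q φ b p r g s y)
include C

theorem lift_fix_mem {x : V8} (hx : x ∈ C.five.ctx.fix) :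
    ∃ a ∈ Q ⊓ Subgroup.centralizer ({b} : Set G), φ a = x := by
  obtain ⟨a, ha, e⟩ := C.fr.map_surj x
  exact ⟨a, ⟨ha, Subgroup.mem_centralizer_singleton_iff.2
    ((C.five.ctx.mem_fix_iff ha).1 (e ▸ hx)).symm⟩, e⟩

theorem act_eq_of_cent {c : G} (hc : c * z = z * c)
    (hQ : ∀ a ∈ Q ⊓ Subgroup.centralizer ({b} : Set G), c * a = a * c) {x : V8}
    (hx : x ∈ C.five.ctx.fix) : C.five.ctx.fr.act c x = x := by
  obtain ⟨a, ha, rfl⟩ := C.lift_fix_mem hx
  rw [C.five.ctx.fr.act_map hc ha.1, hQ a ha, mul_inv_cancel_right]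

theorem act_mov_of_fix {c : G} (hc : c * z = z * c)
    (hf : ∀ x ∈ C.five.ctx.fix, C.five.ctx.fr.act c x = x) {w : V8} (hw : w ∈ C.five.ctx.mov) :
    C.five.ctx.fr.act c w ∈ C.five.ctx.mov :=
  C.five.ctx.mem_mov_of_perp fun u hu => by
    rw [← hf u hu, C.five.ctx.fr.act_B hc, C.fr.qf.symm]
    exact C.five.ctx.perp hu hw

/-- The square of an element acting trivially on the fixed space centralises `C_Q(b)`. -/
theorem sq_cent {c : G} (hc : c * z = z * c)
    (hf : ∀ x ∈ C.five.ctx.fix, C.five.ctx.fr.act c x = x) {a : G}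
    (ha : a ∈ Q ⊓ Subgroup.centralizer ({b} : Set G)) : c * c * a = a * (c * c) := by
  have hfix : φ a ∈ C.five.ctx.fix :=
    (C.five.ctx.mem_fix_iff ha.1).2 (Subgroup.mem_centralizer_singleton_iff.1 ha.2).symm
  have h := C.five.ctx.fr
  refine mul_inv_eq_iff_eq_mul.1 ?_
  rw [show c * c * a * (c * c)⁻¹ = c * (c * a * c⁻¹) * c⁻¹ by group]
  rcases h.eq_or_of_map_eq (h.conj_memQ hc ha.1) ha.1 (by
    rw [← h.act_map hc ha.1, hf _ hfix]) with e | e <;> rw [e]
  · exact e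
  · rw [show c * (a * z) * c⁻¹ = c * a * c⁻¹ * (c * z * c⁻¹) by group, e, hc, mul_inv_cancel_right,
      mul_assoc, h.ci.sq, mul_one]

/-- Centralising `z` and `C_Q(b)` gives centralising the part of the layer centralising `z`. -/
theorem side {c : G} (hc : c * z = z * c)
    (hQ : ∀ a ∈ Q ⊓ Subgroup.centralizer ({b} : Set G), c * a = a * c) :
    ∀ l ∈ LL b ⊓ Subgroup.centralizer ({z} : Set G), l * c = c * l := by
  have h := C.five.ctx.fr
  set L0 := LL b ⊓ Subgroup.centralizer ({z} : Set G) with hL0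
  have hlz : ∀ {l}, l ∈ L0 → l * z = z * l := fun {l} hl =>
    Subgroup.mem_centralizer_singleton_iff.1 hl.2
  have hci : c⁻¹ * z = z * c⁻¹ := (Commute.inv_left hc).eq
  have hcfix : ∀ x ∈ C.five.ctx.fix, h.act c x = x := fun x hx => C.act_eq_of_cent hc hQ hx
  -- the commutator lies in `Q`
  have hQmem : ∀ l ∈ L0, l * c * l⁻¹ * c⁻¹ ∈ Q ∧ φ (l * c * l⁻¹ * c⁻¹) ∈ C.five.ctx.mov := by
    intro l hl
    have hli : l⁻¹ * z = z * l⁻¹ := (Commute.inv_left (hlz hl)).eq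
    have hcl : c * l * z = z * (c * l) := h.mul_comm_z hc (hlz hl)
    have hlc : l * c * z = z * (l * c) := h.mul_comm_z (hlz hl) hc
    have hagree : ∀ x, h.act (l * c) x = h.act (c * l) x := by
      intro x
      obtain ⟨v, hv, w, hw, rfl⟩ := C.five.decomp x
      have hlv : h.act l v ∈ C.five.ctx.fix :=
        (C.five.pres_fix (C.five.comm_of_mem ⟨LL_le b hl.1, hl.2⟩)).mem v hv
      rw [h.act_mul (hlz hl) hc, h.act_mul hc (hlz hl), h.act_add hc, h.act_add (hlz hl),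
        h.act_add (hlz hl), h.act_add hc, hcfix v hv, hcfix _ hlv, C.act_mov_L0 hl hw,
        C.act_mov_L0 hl (C.act_mov_of_fix hc hcfix hw)]
    have hez : l * c * (c * l)⁻¹ * z = z * (l * c * (c * l)⁻¹) :=
      h.mul_comm_z hlc (Commute.inv_left hcl).eq
    have he : l * c * l⁻¹ * c⁻¹ = l * c * (c * l)⁻¹ := by group
    have hmem : l * c * (c * l)⁻¹ ∈ Q := h.mem_of_act hez fun x => by
      rw [h.act_mul hlc (Commute.inv_left hcl).eq, hagree, h.act_act_inv hcl]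
    rw [he]
    refine ⟨hmem, C.five.ctx.mem_mov_of_perp fun u hu => ?_⟩
    obtain ⟨a, ha, rfl⟩ := C.lift_fix_mem hu
    refine (h.map_comm _ hmem a ha.1).1 ?_
    rw [← he]
    have hla : l⁻¹ * a * l ∈ Q ⊓ Subgroup.centralizer ({b} : Set G) := by
      refine ⟨?_, (Subgroup.centralizer ({b} : Set G)).mul_mem ((Subgroup.centralizer ({b} : Set G)).mul_mem
        ((Subgroup.centralizer ({b} : Set G)).inv_mem (LL_le b hl.1)) ha.2) (LL_le b hl.1)⟩
      have := h.conj_memQ hli ha.1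
      rwa [inv_inv] at this
    have e1 : c * (l⁻¹ * a * l) = l⁻¹ * a * l * c := hQ _ hla
    have e2 : c⁻¹ * a = a * c⁻¹ := (Commute.inv_left (hQ a ha : Commute c a)).eq
    calc l * c * l⁻¹ * c⁻¹ * a = l * c * l⁻¹ * (c⁻¹ * a) := by group
      _ = l * (c * (l⁻¹ * a * l)) * l⁻¹ * c⁻¹ := by rw [e2]; group
      _ = a * (l * c * l⁻¹ * c⁻¹) := by rw [e1]; group
  have hmul : ∀ l ∈ L0, ∀ m ∈ L0, φ (l * m * c * (l * m)⁻¹ * c⁻¹) =
      φ (m * c * m⁻¹ * c⁻¹) + φ (l * c * l⁻¹ * c⁻¹) := by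
    intro l hl m hm
    obtain ⟨hmQ, hmv⟩ := hQmem m hm
    rw [show l * m * c * (l * m)⁻¹ * c⁻¹ =
      l * (m * c * m⁻¹ * c⁻¹) * l⁻¹ * (l * c * l⁻¹ * c⁻¹) by group,
      h.map_mul _ (h.conj_memQ (hlz hl) hmQ) _ (hQmem l hl).1, ← h.act_map (hlz hl) hmQ,
      C.act_mov_L0 hl hmv]
  have hone : φ (1 * c * (1 : G)⁻¹ * c⁻¹) = 0 := by
    rw [show 1 * c * (1 : G)⁻¹ * c⁻¹ = 1 by group, h.map_one]
  let H : Subgroup G :=
    { carrier := {l | l ∈ L0 ∧ φ (l * c * l⁻¹ * c⁻¹) = 0}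
      one_mem' := ⟨one_mem _, hone⟩
      mul_mem' := fun {l m} hl hm => ⟨mul_mem hl.1 hm.1, by
        rw [hmul l hl.1 m hm.1, hl.2, hm.2, add_zero]⟩
      inv_mem' := fun {l} hl => ⟨inv_mem hl.1, by
        have e := hmul l hl.1 l⁻¹ (inv_mem hl.1)
        rw [mul_inv_cancel, hone, hl.2, add_zero] at e
        exact e.symm⟩ }
  have h1 : L0 ≤ H := C.L0_induction (m := 2)
    (fun a ha => ⟨C.Qb_le ha, by
      rw [← hQ a ha, show c * a * a⁻¹ * c⁻¹ = 1 by group, h.map_one]⟩)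
    (by norm_num)
    (fun l hl => ⟨pow_mem hl 2, by rw [pow_two, hmul l hl l hl, add_self']⟩)
  intro l hl
  have key := C.L0_induction (H := Subgroup.centralizer ({c} : Set G)) (m := 2)
    (fun a ha => Subgroup.mem_centralizer_singleton_iff.2 (hQ a ha).symm) (by norm_num)
    (fun m hm => Subgroup.mem_centralizer_singleton_iff.2 (by
      rcases h.map_ker _ (hQmem m hm).1 (h1 hm).2 with e | e
      · have e' : m * c * m⁻¹ = c := mul_inv_eq_one.1 e
        exact (Commute.pow_left (mul_inv_eq_iff_eq_mul.1 e' : Commute m c) 2).eq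
      · have e' : m * c * m⁻¹ = z * c := mul_inv_eq_iff_eq_mul.1 e
        refine mul_inv_eq_iff_eq_mul.1 ?_
        calc m ^ 2 * c * (m ^ 2)⁻¹ = m * (m * c * m⁻¹) * m⁻¹ := by rw [pow_two]; group
          _ = m * (z * c) * m⁻¹ := by rw [e']
          _ = m * z * m⁻¹ * (m * c * m⁻¹) := by group
          _ = c := by rw [hlz hm, mul_inv_cancel_right, e', ← mul_assoc, h.ci.sq, one_mul]))
  exact Subgroup.mem_centralizer_singleton_iff.1 (key hl)

end Conf

end Cfsg.Agent.Co1Five
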