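import Cfsg.Agent.Co1Five.Side

/-!
The group centralising the part of the layer centralising a four-group, and its action on the moved
space.
-/

set_option autoImplicit false

namespace Cfsg.Agent.Co1Five

open Cfsg Cfsg.Agent.ExtraTwo Cfsg.Agent.LargeExtra Cfsg.Agent.TTClass.OrthF2
open Cfsg.Agent.Co1Type

theorem two_group_cyc : ∀ π : Equiv.Perm (Fin 5), π ^ 8 = 1 →
    (∀ i : Fin 5, (π * (cyc5 ^ (i : ℕ) * π * (cyc5 ^ (i : ℕ))⁻¹)⁻¹) ^ 8 = 1) → π = 1 := by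
  decide +kernel

variable {G : Type*} [Group G] [Finite G]

namespace Conf

variable {z : G} {Q : Subgroup G} {φ : G → V8} {b : G} {p r : Fin 5 → V8} {g s y : G}
  (C : Conf z Q φ b p r g s y)
include C

/-- The part of the layer centralising the four-group. -/
def L1 (_C : Conf z Q φ b p r g s y) : Subgroup G :=
  LL b ⊓ Subgroup.centralizer ({z} : Set G) ⊓ Subgroup.centralizer ({s} : Set G)

/-- The centraliser of the four-group and of `L1`. -/
def TT (_C : Conf z Q φ b p r g s y) : Subgroup G :=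
  Subgroup.centralizer ({z} : Set G) ⊓ Subgroup.centralizer ({s} : Set G) ⊓
    Subgroup.centralizer (_C.L1 : Set G)

theorem mem_L1 {l : G} : l ∈ C.L1 ↔ l ∈ LL b ∧ l * z = z * l ∧ l * s = s * l := by
  simp only [L1, Subgroup.mem_inf, Subgroup.mem_centralizer_singleton_iff, and_assoc]

theorem mem_TT {c : G} :
    c ∈ C.TT ↔ c * z = z * c ∧ c * s = s * c ∧ ∀ l ∈ C.L1, l * c = c * l := by
  simp only [TT, Subgroup.mem_inf, Subgroup.mem_centralizer_singleton_iff, and_assoc]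
  rw [Subgroup.mem_centralizer_iff]
  rfl

theorem b_mem_TT : b ∈ C.TT := C.mem_TT.2 ⟨C.five.ctx.bz, C.bs, fun _ hl =>
  Subgroup.mem_centralizer_singleton_iff.1 (LL_le b (C.mem_L1.1 hl).1)⟩

theorem tz {c : G} (hc : c ∈ C.TT) : c * z = z * c := (C.mem_TT.1 hc).1

theorem s_Qb : s ∈ Q ⊓ Subgroup.centralizer ({b} : Set G) :=
  ⟨C.at_.mem, Subgroup.mem_centralizer_singleton_iff.2 C.bs.symm⟩

theorem act_p0 {c : G} (hc : c ∈ C.TT) : C.five.ctx.fr.act c (p 0) = p 0 := by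
  rw [C.five.p0, ← C.at_.img, C.five.ctx.fr.act_map (C.tz hc) C.at_.mem, (C.mem_TT.1 hc).2.1,
    mul_inv_cancel_right]

theorem act_perp {c : G} (hc : c ∈ C.TT) {u : V8} (hu : u ∈ C.five.ctx.fix)
    (h0 : b8 u (p 0) = 0) : C.five.ctx.fr.act c u = u := by
  obtain ⟨a, ha, rfl⟩ := C.lift_fix_mem hu
  have has : a * s = s * a := (C.at_.img_comm ha.1).2 (by rw [← C.five.p0]; exact h0)
  have hl : a ∈ C.L1 := C.mem_L1.2 ⟨(C.Qb_le ha).1, C.fr.ci.comm a ha.1, has⟩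
  rw [C.five.ctx.fr.act_map (C.tz hc) ha.1, ← (C.mem_TT.1 hc).2.2 a hl, mul_inv_cancel_right]

theorem pair_t : b8 (p 1) (p 0) = 1 := C.five.hp.pair 1 0 (by decide)

theorem perp_perp {x : V8} (hx : x ∈ C.five.ctx.fix)
    (h : ∀ u ∈ C.five.ctx.fix, b8 u (p 0) = 0 → b8 x u = 0) : x = b8 x (p 1) • p 0 := by
  have hqf := C.fr.qf
  refine eq_of_add_eq_zero' (C.five.hp.eq_zero_of_perp
    (add_mem hx (Submodule.smul_mem _ _ (C.five.hp.mem 0))) fun i => ?_)
  have h00 : b8 x (p 0) = 0 := h _ (C.five.hp.mem 0) (hqf.self _)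
  rw [LinearMap.map_add₂, LinearMap.map_smul₂]
  rcases eq_or_ne i 0 with rfl | hi
  · rw [h00, hqf.self, smul_zero, add_zero]
  · rw [C.five.hp.pair 0 i hi.symm, smul_eq_mul, mul_one]
    rcases eq_or_ne i 1 with rfl | hi1
    · exact add_self' _
    · have e := h (p i + p 1) (add_mem (C.five.hp.mem i) (C.five.hp.mem 1)) (by
        rw [LinearMap.map_add₂, C.five.hp.pair i 0 hi, C.pair_t]; rfl)
      rwa [map_add] at e

/-- The projection to the moved space. -/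
noncomputable def pm : V8 →ₗ[ZMod 2] V8 := LinearMap.id + C.five.ctx.avg

theorem pm_apply (x : V8) : C.pm x = x + C.five.ctx.avg x := rfl

theorem pm_mem (x : V8) : C.pm x ∈ C.five.ctx.mov := (C.five.ctx.split x).2

theorem pm_fix {x : V8} (hx : x ∈ C.five.ctx.fix) : C.pm x = 0 := by
  rw [pm_apply, C.five.ctx.avg_fix hx, add_self']

theorem pm_mov {x : V8} (hx : x ∈ C.five.ctx.mov) : C.pm x = x := by
  rw [pm_apply, C.five.ctx.mem_mov.1 hx, add_zero]

theorem split_pm (x : V8) : x = C.five.ctx.avg x + C.pm x :=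
  (C.five.ctx.splitEquiv.symm_apply_apply x).symm

/-- The map induced on the moved space. -/
noncomputable def th (c : G) (v : V8) : V8 := C.pm (C.five.ctx.fr.act c v)

/-- The translation part. -/
noncomputable def rho (c : G) : V8 := C.th c (p 1)

theorem th_mem (c : G) (v : V8) : C.th c v ∈ C.five.ctx.mov := C.pm_mem _

theorem th_add {c : G} (hc : c ∈ C.TT) (v w : V8) : C.th c (v + w) = C.th c v + C.th c w := by
  rw [th, th, th, C.five.ctx.fr.act_add (C.tz hc), map_add]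

theorem act_split {c : G} (hc : c ∈ C.TT) {w : V8} (hw : w ∈ C.five.ctx.mov) :
    C.five.ctx.fr.act c w = b8 (C.five.ctx.avg (C.five.ctx.fr.act c w)) (p 1) • p 0 + C.th c w := by
  conv_lhs => rw [C.split_pm (C.five.ctx.fr.act c w)]
  congr 1
  refine C.perp_perp (C.five.ctx.avg_mem _) fun u hu h0 => ?_
  have e1 : b8 (C.five.ctx.fr.act c w) u = 0 := by
    rw [← C.act_perp hc hu h0, C.five.ctx.fr.act_B (C.tz hc), C.fr.qf.symm]
    exact C.five.ctx.perp hu hw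
  rw [C.split_pm (C.five.ctx.fr.act c w), LinearMap.map_add₂] at e1
  rwa [show b8 (C.pm (C.five.ctx.fr.act c w)) u = 0 by
    rw [C.fr.qf.symm]; exact C.five.ctx.perp hu (C.pm_mem _), add_zero] at e1

theorem act_split_t {c : G} (hc : c ∈ C.TT) :
    ∃ ε : ZMod 2, C.five.ctx.fr.act c (p 1) = p 1 + ε • p 0 + C.rho c := by
  have hm := C.five.hp.mem 1
  refine ⟨b8 (p 1 + C.five.ctx.avg (C.five.ctx.fr.act c (p 1))) (p 1), ?_⟩
  have e : p 1 + C.five.ctx.avg (C.five.ctx.fr.act c (p 1)) =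
      b8 (p 1 + C.five.ctx.avg (C.five.ctx.fr.act c (p 1))) (p 1) • p 0 := by
    refine C.perp_perp (add_mem hm (C.five.ctx.avg_mem _)) fun u hu h0 => ?_
    have e1 : b8 (C.five.ctx.fr.act c (p 1)) u = b8 (p 1) u := by
      conv_lhs => rw [← C.act_perp hc hu h0, C.five.ctx.fr.act_B (C.tz hc)]
    rw [C.split_pm (C.five.ctx.fr.act c (p 1)), LinearMap.map_add₂,
      show b8 (C.pm (C.five.ctx.fr.act c (p 1))) u = 0 by
        rw [C.fr.qf.symm]; exact C.five.ctx.perp hu (C.pm_mem _), add_zero] at e1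
    rw [LinearMap.map_add₂, e1, add_self']
  rw [← e, add_left_self]
  exact C.split_pm _

theorem rho_mem (c : G) : C.rho c ∈ C.five.ctx.mov := C.th_mem _ _

theorem th_mul {c d : G} (hc : c ∈ C.TT) (hd : d ∈ C.TT) {v : V8} (hv : v ∈ C.five.ctx.mov) :
    C.th (c * d) v = C.th c (C.th d v) := by
  have h := C.five.ctx.fr
  show C.pm (h.act (c * d) v) = C.pm (h.act c (C.th d v))
  rw [h.act_mul (C.tz hc) (C.tz hd), C.act_split hd hv, h.act_add (C.tz hc), h.act_smul (C.tz hc),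
    C.act_p0 hc, map_add, map_smul, C.pm_fix (C.five.hp.mem 0), smul_zero, zero_add]

theorem rho_mul {c d : G} (hc : c ∈ C.TT) (hd : d ∈ C.TT) :
    C.rho (c * d) = C.rho c + C.th c (C.rho d) := by
  have h := C.five.ctx.fr
  obtain ⟨ε, e⟩ := C.act_split_t hd
  show C.pm (h.act (c * d) (p 1)) = C.pm (h.act c (p 1)) + C.pm (h.act c (C.rho d))
  rw [h.act_mul (C.tz hc) (C.tz hd), e, h.act_add (C.tz hc), h.act_add (C.tz hc),
    h.act_smul (C.tz hc), C.act_p0 hc, map_add, map_add, map_smul, C.pm_fix (C.five.hp.mem 0),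
    smul_zero, add_zero]

theorem th_one {v : V8} (hv : v ∈ C.five.ctx.mov) : C.th 1 v = v := by
  rw [th, C.five.ctx.fr.act_one, C.pm_mov hv]

theorem rho_one : C.rho 1 = 0 := by
  rw [rho, th, C.five.ctx.fr.act_one, C.pm_fix (C.five.hp.mem 1)]

theorem q_th {c : G} (hc : c ∈ C.TT) {v : V8} (hv : v ∈ C.five.ctx.mov) :
    q8 (C.th c v) = q8 v := by
  have hqf := C.fr.qf
  have e : q8 (C.five.ctx.fr.act c v) = q8 v := C.five.ctx.fr.act_q (C.tz hc) v
  rw [C.act_split hc hv,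
    C.five.ctx.q_split (Submodule.smul_mem _ _ (C.five.hp.mem 0)) (C.th_mem c v)] at e
  generalize b8 (C.five.ctx.avg (C.five.ctx.fr.act c v)) (p 1) = k at e
  rcases z2 k with rfl | rfl
  · rwa [zero_smul, hqf.zero, zero_add] at e
  · rwa [one_smul, C.five.hp.sing, zero_add] at e

/-- The permutation induced on the five points. -/
def Has (c : G) (π : Equiv.Perm (Fin 5)) : Prop := ∀ i, C.th c (r i) = r (π i)

theorem has_unique {c : G} {π π' : Equiv.Perm (Fin 5)} (h : C.Has c π) (h' : C.Has c π') :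
    π = π' :=
  Equiv.ext fun i => C.five.hr.inj ((h i).symm.trans (h' i))

theorem has_exists {c : G} (hc : c ∈ C.TT) : ∃ π, C.Has c π := by
  refine C.five.hr.exists_perm (M := fun x => C.th c (C.pm x) + C.five.ctx.avg x)
    ⟨fun x x' => ?_, fun x => ?_, fun x hx => ?_⟩ |>.imp fun π hπ i => ?_
  · simp only [map_add, C.th_add hc]
    abel
  · conv_rhs => rw [C.split_pm x, C.five.ctx.q_split (C.five.ctx.avg_mem x) (C.pm_mem x),
      ← C.q_th hc (C.pm_mem x)]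
    rw [add_comm, C.five.ctx.q_split (C.five.ctx.avg_mem x) (C.th_mem c _)]
  · simp only [C.five.ctx.mem_mov.1 hx, add_zero]
    exact C.th_mem c _
  · have := hπ i
    simpa only [C.pm_mov (C.five.hr.mem i), C.five.ctx.mem_mov.1 (C.five.hr.mem i), add_zero]
      using this

theorem has_mul {c d : G} (hc : c ∈ C.TT) (hd : d ∈ C.TT) {π π' : Equiv.Perm (Fin 5)}
    (h : C.Has c π) (h' : C.Has d π') : C.Has (c * d) (π * π') := fun i => by
  rw [C.th_mul hc hd (C.five.hr.mem i), h', h]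
  rfl

theorem has_one : C.Has 1 1 := fun i => C.th_one (C.five.hr.mem i)

theorem has_inv {c : G} (hc : c ∈ C.TT) {π : Equiv.Perm (Fin 5)} (h : C.Has c π) :
    C.Has c⁻¹ π⁻¹ := by
  obtain ⟨π', h'⟩ := C.has_exists (inv_mem hc)
  have e := C.has_mul hc (inv_mem hc) h h'
  rw [mul_inv_cancel] at e
  rwa [eq_inv_of_mul_eq_one_right (C.has_unique e C.has_one)] at h'

theorem has_pow {c : G} (hc : c ∈ C.TT) {π : Equiv.Perm (Fin 5)} (h : C.Has c π) :
    ∀ n : ℕ, C.Has (c ^ n) (π ^ n)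
  | 0 => by rw [pow_zero, pow_zero]; exact C.has_one
  | n + 1 => by
    rw [pow_succ, pow_succ]
    exact C.has_mul (pow_mem hc n) hc (has_pow hc h n) h

theorem has_conj {c d : G} (hc : c ∈ C.TT) (hd : d ∈ C.TT) {π π' : Equiv.Perm (Fin 5)}
    (h : C.Has c π) (h' : C.Has d π') : C.Has (c * d * c⁻¹) (π * π' * π⁻¹) :=
  C.has_mul (mul_mem hc hd) (inv_mem hc) (C.has_mul hc hd h h') (C.has_inv hc h)

theorem th_eq {c : G} (hc : c ∈ C.TT) {π : Equiv.Perm (Fin 5)} (h : C.Has c π) {v : V8}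
    (hv : v ∈ C.five.ctx.mov) {e : Fin 5 → ZMod 2} (he : v = comb r e) :
    C.th c v = comb r (pAct π e) := by
  rw [he, C.five.hr.map_comb (C.th_add hc) h]

theorem th_id {c : G} (hc : c ∈ C.TT) (h : C.Has c 1) {v : V8} (hv : v ∈ C.five.ctx.mov) :
    C.th c v = v :=
  C.five.hr.eq_of_perm (M' := id) (C.th_add hc) (fun _ _ => rfl) h (fun _ => rfl) hv

theorem has_b : C.Has b cyc5 := fun i => by
  rw [th, C.five.shift, cyc5_apply, C.pm_mov (C.five.hr.mem _)]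

theorem rho_b : C.rho b = 0 := by
  rw [rho, th, C.five.ctx.mem_fix.1 (C.five.hp.mem 1), C.pm_fix (C.five.hp.mem 1)]

theorem rho_Q {a : G} (ha : a ∈ Q) : C.rho a = 0 := by
  rw [rho, th, C.five.ctx.fr.act_of_mem ha, C.pm_fix (C.five.hp.mem 1)]

theorem has_Q {a : G} (ha : a ∈ Q) : C.Has a 1 := fun i => by
  rw [th, C.five.ctx.fr.act_of_mem ha, C.pm_mov (C.five.hr.mem i)]
  rfl

theorem mem_Q_of {c : G} (hc : c ∈ C.TT) (h : C.Has c 1) (h0 : C.rho c = 0) : c ∈ Q := by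
  have hF := C.five.ctx.fr
  have hqf := C.fr.qf
  obtain ⟨ε, e⟩ := C.act_split_t hc
  rw [h0, add_zero] at e
  have hε : ε = 0 := by
    have e' := congrArg q8 e
    rw [hF.act_q (C.tz hc)] at e'
    rcases z2 ε with rfl | rfl
    · rfl
    · rw [one_smul, C.five.hp.q_add (by decide), C.five.hp.sing] at e'
      exact e'.symm
  rw [hε, zero_smul, add_zero] at e
  have hmov : ∀ w ∈ C.five.ctx.mov, hF.act c w = w := fun w hw => by
    have e1 := C.act_split hc hw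
    rw [C.th_id hc h hw] at e1
    set k := b8 (C.five.ctx.avg (hF.act c w)) (p 1)
    have e2 : b8 (hF.act c w) (hF.act c (p 1)) = b8 w (p 1) := hF.act_B (C.tz hc) _ _
    have hw1 : b8 w (p 1) = 0 := by rw [hqf.symm]; exact C.five.ctx.perp (C.five.hp.mem 1) hw
    rw [e, e1, LinearMap.map_add₂, LinearMap.map_smul₂, hw1, add_zero, hqf.symm (p 0),
      C.pair_t, smul_eq_mul, mul_one] at e2
    rw [e1, e2, zero_smul, zero_add]
  refine hF.mem_of_act (C.tz hc) fun x => ?_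
  obtain ⟨v, hv, w, hw, rfl⟩ := C.five.decomp x
  rw [hF.act_add (C.tz hc), hmov w hw]
  congr 1
  rcases z2 (b8 v (p 0)) with e' | e'
  · exact C.act_perp hc hv e'
  · have e3 := C.act_perp hc (add_mem hv (C.five.hp.mem 1)) (by
      rw [LinearMap.map_add₂, e', C.pair_t]; rfl)
    rw [hF.act_add (C.tz hc), e] at e3
    exact add_right_cancel e3

theorem sq_mem_Q {c : G} (hc : c ∈ C.TT) (h : C.Has c 1) : c * c ∈ Q :=
  C.mem_Q_of (mul_mem hc hc) (by simpa using C.has_mul hc hc h h) (by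
    rw [C.rho_mul hc hc, C.th_id hc h (C.rho_mem c), add_self'])

theorem pow_eight {c : G} (hc : c ∈ C.TT) (h : C.Has c 1) : c ^ 8 = 1 := by
  rw [show (8 : ℕ) = 2 * 4 from rfl, pow_mul, pow_two]
  exact C.pow_four (C.sq_mem_Q hc h)

theorem y_mem_LL : y ∈ LL b := by
  obtain ⟨k, hk⟩ := C.ypow
  exact C.mem_of_pow C.yb hk (Nat.Coprime.pow_left k (by norm_num))

theorem s_comm_z : s * z = z * s := C.at_.s_comm_z

theorem y_sz : y * (s * z) * y⁻¹ = z := by
  rw [show y * (s * z) * y⁻¹ = y * s * y⁻¹ * (y * z * y⁻¹) by group, C.ys, C.yz, C.s_comm_z,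
    mul_assoc, C.at_.sq_s, mul_one]

theorem yinv_z : y⁻¹ * z * y = s * z := by
  conv_lhs => rw [← C.y_sz]
  group

theorem yinv_s : y⁻¹ * s * y = z := by
  conv_lhs => rw [← C.yz]
  group

theorem conj_TT {c : G} (hc : c ∈ C.TT) : y * c * y⁻¹ ∈ C.TT := by
  obtain ⟨hz, hs, hl⟩ := C.mem_TT.1 hc
  have hsz : c * (s * z) = s * z * c := by rw [← mul_assoc, hs, mul_assoc, hz, ← mul_assoc]
  refine C.mem_TT.2 ⟨?_, ?_, fun l hl' => ?_⟩
  · calc y * c * y⁻¹ * z = y * c * y⁻¹ * (y * (s * z) * y⁻¹) := by rw [C.y_sz]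
      _ = y * (c * (s * z)) * y⁻¹ := by group
      _ = y * (s * z) * y⁻¹ * (y * c * y⁻¹) := by rw [hsz]; group
      _ = z * (y * c * y⁻¹) := by rw [C.y_sz]
  · calc y * c * y⁻¹ * s = y * c * y⁻¹ * (y * z * y⁻¹) := by rw [C.yz]
      _ = y * (c * z) * y⁻¹ := by group
      _ = y * z * y⁻¹ * (y * c * y⁻¹) := by rw [hz]; group
      _ = s * (y * c * y⁻¹) := by rw [C.yz]
  · obtain ⟨hlL, hlz, hls⟩ := C.mem_L1.1 hl'
    have hlsz : l * (s * z) = s * z * l := by rw [← mul_assoc, hls, mul_assoc, hlz, ← mul_assoc]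
    have hm : y⁻¹ * l * y ∈ C.L1 := by
      refine C.mem_L1.2 ⟨mul_mem (mul_mem (inv_mem C.y_mem_LL) hlL) C.y_mem_LL, ?_, ?_⟩
      · calc y⁻¹ * l * y * z = y⁻¹ * (l * (y * z * y⁻¹)) * y := by group
          _ = y⁻¹ * (y * z * y⁻¹ * l) * y := by rw [C.yz, hls]
          _ = z * (y⁻¹ * l * y) := by group
      · calc y⁻¹ * l * y * s = y⁻¹ * (l * (y * s * y⁻¹)) * y := by group
          _ = y⁻¹ * (y * s * y⁻¹ * l) * y := by rw [C.ys, hlsz]
          _ = s * (y⁻¹ * l * y) := by group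
    calc l * (y * c * y⁻¹) = y * (y⁻¹ * l * y * c) * y⁻¹ := by group
      _ = y * c * y⁻¹ * l := by rw [hl _ hm]; group

theorem conj_has_one {c : G} (hc : c ∈ C.TT) (h : C.Has c 1) : C.Has (y * c * y⁻¹) 1 := by
  obtain ⟨π, hπ⟩ := C.has_exists (C.conj_TT hc)
  have h8 : ∀ {x} {σ : Equiv.Perm (Fin 5)}, x ∈ C.TT → C.Has x σ → x ^ 8 = 1 → σ ^ 8 = 1 :=
    fun {x σ} hx hσ e => C.has_unique (c := x ^ 8) (C.has_pow hx hσ 8) (by rw [e]; exact C.has_one)
  have hone : π = 1 := by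
    refine two_group_cyc π (h8 (C.conj_TT hc) hπ (by rw [conj_pow, C.pow_eight hc h]; group))
      fun i => ?_
    have hbi : b ^ (i : ℕ) ∈ C.TT := pow_mem C.b_mem_TT _
    have hyc := C.conj_TT hc
    have hxm := inv_mem (mul_mem (mul_mem hbi hyc) (inv_mem hbi))
    have hx := C.has_mul hyc hxm hπ (C.has_inv (mul_mem (mul_mem hbi hyc) (inv_mem hbi))
      (C.has_conj hbi hyc (C.has_pow C.b_mem_TT C.has_b i) hπ))
    refine h8 (mul_mem hyc hxm) hx ?_
    have hcm := mul_mem (mul_mem hbi hc) (inv_mem hbi)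
    have hin : c * (b ^ (i : ℕ) * c * (b ^ (i : ℕ))⁻¹)⁻¹ ∈ C.TT := mul_mem hc (inv_mem hcm)
    have hh : C.Has (c * (b ^ (i : ℕ) * c * (b ^ (i : ℕ))⁻¹)⁻¹) 1 := by
      have e := C.has_mul hc (inv_mem hcm) h
        (C.has_inv hcm (C.has_conj hbi hc (C.has_pow C.b_mem_TT C.has_b i) h))
      simpa using e
    have hyb : y * b ^ (i : ℕ) = b ^ (i : ℕ) * y := (Commute.pow_right C.yb _).eq
    rw [show y * c * y⁻¹ * (b ^ (i : ℕ) * (y * c * y⁻¹) * (b ^ (i : ℕ))⁻¹)⁻¹ =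
      y * c * y⁻¹ * ((b ^ (i : ℕ) * y) * c * (b ^ (i : ℕ) * y)⁻¹)⁻¹ by group, ← hyb,
      show y * c * y⁻¹ * (y * b ^ (i : ℕ) * c * (y * b ^ (i : ℕ))⁻¹)⁻¹ =
      y * (c * (b ^ (i : ℕ) * c * (b ^ (i : ℕ))⁻¹)⁻¹) * y⁻¹ by group, conj_pow, C.pow_eight hin hh]
    group
  rwa [hone] at hπ

theorem conj_has {c d : G} (hc : c ∈ C.TT) (hd : d ∈ C.TT) {π σ : Equiv.Perm (Fin 5)}
    (hcπ : C.Has c π) (hdπ : C.Has d π) (hσ : C.Has (y * c * y⁻¹) σ) :
    C.Has (y * d * y⁻¹) σ := by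
  have hk : C.Has (c⁻¹ * d) 1 := by
    simpa using C.has_mul (inv_mem hc) hd (C.has_inv hc hcπ) hdπ
  have e := C.has_mul (C.conj_TT hc) (C.conj_TT (mul_mem (inv_mem hc) hd)) hσ
    (C.conj_has_one (mul_mem (inv_mem hc) hd) hk)
  rwa [mul_one, show y * c * y⁻¹ * (y * (c⁻¹ * d) * y⁻¹) = y * d * y⁻¹ by group] at e

end Conf

end Cfsg.Agent.Co1Five
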